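import Cfsg.Agent.Leech.CrossStab
import Cfsg.Agent.Leech.Zeta
import Cfsg.Agent.Leech.Co2
import Cfsg.Agent.M24X.OctAlt
import Cfsg.Agent.ClassSp.Simple

/-!
# The sublattice of vectors supported on an octad
-/

set_option autoImplicit false

namespace Cfsg.Agent.C2

open Cfsg Cfsg.Agent.Leech Cfsg.Agent.Golay Cfsg.Agent.ClassSp

/-- the points of the octad -/
def P : Fin 8 → GolayPt := ![none, some 0, some 1, some 2, some 3, some 5, some 14, some 17]

theorem P_inj : Function.Injective P := by decide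

theorem P_mem : ∀ i, P i ∈ o0 := by decide +kernel

theorem o0_eq : o0 = Finset.univ.image P := by decide +kernel

theorem exists_P {q : GolayPt} (h : q ∈ o0) : ∃ i, P i = q := by
  rw [o0_eq, Finset.mem_image] at h
  obtain ⟨i, -, hi⟩ := h
  exact ⟨i, hi⟩

theorem sum_supp {f : GolayPt → ℤ} (h : ∀ q, q ∉ o0 → f q = 0) : ∑ q, f q = ∑ i, f (P i) := by
  rw [← Finset.sum_subset (Finset.subset_univ o0) (fun q _ hq => h q hq), o0_eq, Finset.sum_image (fun a _ b _ hab => P_inj hab)]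

/-- parameters of a vector supported on the octad -/
structure Par (x : GolayPt → ℤ) (u : Fin 8 → ℤ) (e s : ℤ) : Prop where
  supp : ∀ q, q ∉ o0 → x q = 0
  co : ∀ i, x (P i) = 4 * u i + 2 * e
  sm : ∑ i, u i = 2 * s
  e01 : e = 0 ∨ e = 1

theorem dot_par {x y : GolayPt → ℤ} {u w : Fin 8 → ℤ} {e s f t : ℤ} (hx : Par x u e s) (hy : Par y w f t) :
    dotInt x y = 16 * (∑ i, u i * w i + f * s + e * t + 2 * e * f) := by
  unfold dotInt
  rw [sum_supp (fun q hq => by rw [hx.supp q hq, zero_mul])]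
  have h1 : ∀ i, x (P i) * y (P i) = 16 * (u i * w i) + 8 * f * u i + 8 * e * w i + 4 * e * f := by
    intro i; rw [hx.co, hy.co]; ring
  rw [Finset.sum_congr rfl (fun i _ => h1 i), Finset.sum_add_distrib, Finset.sum_add_distrib, Finset.sum_add_distrib,
    ← Finset.mul_sum, ← Finset.mul_sum, ← Finset.mul_sum, hx.sm, hy.sm, Finset.sum_const, Finset.card_univ, Fintype.card_fin]
  ring

/-- supported on the octad -/
def SO (x : leechLattice) : Prop := ∀ q, q ∉ o0 → (x : GolayPt → ℤ) q = 0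

theorem code_sub {c : GolayPt → ZMod 2} (hc : c ∈ golayCode) (h : ∀ q, q ∉ o0 → c q = 0) :
    (∀ q ∈ o0, c q = 0) ∨ (∀ q ∈ o0, c q ≠ 0) := by
  have h1 : support₂ c ∈ codeSets := ⟨c, hc, rfl⟩
  have h2 : support₂ c ⊆ o0 := by
    intro q hq
    by_contra hn
    simp [support₂] at hq
    exact hq (h q hn)
  by_cases h3 : (support₂ c).card < 8
  · left
    have h4 := eq_empty_of_card_lt h1 h3
    intro q _
    by_contra hn
    have : q ∈ support₂ c := by simp [support₂, hn]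
    rw [h4] at this
    exact absurd this (Finset.notMem_empty q)
  · right
    have h5 : o0.card = 8 := o0_mem.2
    have h4 := Finset.eq_of_subset_of_card_le h2 (by omega)
    intro q hq
    rw [← h4] at hq
    simpa [support₂] using hq

theorem exists_par {x : leechLattice} (hx : SO x) : ∃ u e s, Par (x : GolayPt → ℤ) u e s := by
  have h4 : (some 4 : GolayPt) ∉ o0 := by decide +kernel
  have hx4 := hx _ h4
  rcases (mem_iff _).1 x.2 with ⟨c, hc, h1, h2⟩ | ⟨c, hc, h1, h2⟩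
  · have h3 : ∀ q, q ∉ o0 → c q = 0 := by
      intro q hq
      have e1 := h1 q
      rw [hx q hq] at e1
      rw [← lift_eq_zero_iff]
      rcases lift_zero_or_one c q with e2 | e2
      · exact e2
      · rw [e2] at e1; unfold Int.ModEq at e1; omega
    obtain ⟨e, he, hce⟩ : ∃ e : ℤ, (e = 0 ∨ e = 1) ∧ ∀ q ∈ o0, lift c q = e := by
      rcases code_sub hc h3 with h5 | h5
      · exact ⟨0, Or.inl rfl, fun q hq => (lift_eq_zero_iff c q).2 (h5 q hq)⟩
      · exact ⟨1, Or.inr rfl, fun q hq => (lift_eq_one_iff c q).2 (h5 q hq)⟩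
    have h6 : ∀ i, ∃ u : ℤ, (x : GolayPt → ℤ) (P i) = 4 * u + 2 * e := by
      intro i
      have e1 := h1 (P i)
      rw [hce _ (P_mem i)] at e1
      refine ⟨((x : GolayPt → ℤ) (P i) - 2 * e) / 4, ?_⟩
      unfold Int.ModEq at e1
      omega
    choose u hu using h6
    have h7 : ∑ i, (x : GolayPt → ℤ) (P i) = 4 * ∑ i, u i + 16 * e := by
      rw [Finset.sum_congr rfl (fun i _ => hu i), Finset.sum_add_distrib, ← Finset.mul_sum, Finset.sum_const,
        Finset.card_univ, Fintype.card_fin, nsmul_eq_mul]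
      push_cast; ring
    rw [sum_supp (fun q hq => hx q hq), h7] at h2
    refine ⟨u, e, (∑ i, u i) / 2, fun q hq => hx q hq, hu, ?_, he⟩
    unfold Int.ModEq at h2
    omega
  · exfalso
    have e1 := h1 (some 4)
    rw [hx4] at e1
    unfold Int.ModEq at e1
    rcases lift_zero_or_one c (some 4) with e2 | e2 <;> rw [e2] at e1 <;> omega

theorem dvd16 {x y : leechLattice} (hx : SO x) (hy : SO y) : (16 : ℤ) ∣ dotInt (x : GolayPt → ℤ) y := by
  obtain ⟨u, e, s, h1⟩ := exists_par hx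
  obtain ⟨w, f, t, h2⟩ := exists_par hy
  exact ⟨_, dot_par h1 h2⟩

theorem SO.add {x y : leechLattice} (hx : SO x) (hy : SO y) : SO (x + y) := by
  intro q hq
  show (x : GolayPt → ℤ) q + (y : GolayPt → ℤ) q = 0
  rw [hx q hq, hy q hq, add_zero]

theorem SO.neg {x : leechLattice} (hx : SO x) : SO (-x) := by
  intro q hq
  show -(x : GolayPt → ℤ) q = 0
  rw [hx q hq, neg_zero]

theorem SO.zero : SO 0 := fun _ _ => rfl

/-- the lattice -/
def E : AddSubgroup leechLattice where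
  carrier := {x | SO x ∧ (x : GolayPt → ℤ) none + (x : GolayPt → ℤ) pz = 0}
  zero_mem' := ⟨SO.zero, rfl⟩
  add_mem' := by
    rintro x y ⟨h1, h2⟩ ⟨h3, h4⟩
    refine ⟨h1.add h3, ?_⟩
    show ((x : GolayPt → ℤ) none + (y : GolayPt → ℤ) none) + ((x : GolayPt → ℤ) pz + (y : GolayPt → ℤ) pz) = 0
    omega
  neg_mem' := by
    rintro x ⟨h1, h2⟩
    refine ⟨h1.neg, ?_⟩
    show -(x : GolayPt → ℤ) none + -(x : GolayPt → ℤ) pz = 0
    omega

theorem mem_E {x : leechLattice} : x ∈ E ↔ SO x ∧ (x : GolayPt → ℤ) none + (x : GolayPt → ℤ) pz = 0 := Iff.rfl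

/-- the form modulo 2 -/
def Bf (x y : leechLattice) : ZMod 2 := ((dotInt (x : GolayPt → ℤ) y / 16 : ℤ) : ZMod 2)

theorem Bf_par {x y : leechLattice} {u w : Fin 8 → ℤ} {e s f t : ℤ} (hx : Par (x : GolayPt → ℤ) u e s) (hy : Par (y : GolayPt → ℤ) w f t) :
    Bf x y = ((∑ i, u i * w i + f * s + e * t + 2 * e * f : ℤ) : ZMod 2) := by
  unfold Bf
  rw [dot_par hx hy, Int.mul_ediv_cancel_left _ (by norm_num)]

theorem Bf_comm (x y : leechLattice) : Bf x y = Bf y x := by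
  unfold Bf dotInt
  rw [Finset.sum_congr rfl (fun i _ => mul_comm _ _)]

theorem dot_add_left' (x y z : leechLattice) : dotInt ((x + y : leechLattice) : GolayPt → ℤ) z = dotInt (x : GolayPt → ℤ) z + dotInt (y : GolayPt → ℤ) z := by
  unfold dotInt
  rw [← Finset.sum_add_distrib]
  exact Finset.sum_congr rfl (fun i _ => by
    show ((x : GolayPt → ℤ) i + (y : GolayPt → ℤ) i) * _ = _
    ring)

theorem Bf_add_left {x y z : leechLattice} (hx : SO x) (hy : SO y) (hz : SO z) : Bf (x + y) z = Bf x z + Bf y z := by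
  unfold Bf
  obtain ⟨a, ha⟩ := dvd16 hx hz
  obtain ⟨b, hb⟩ := dvd16 hy hz
  rw [dot_add_left', ha, hb, ← mul_add, Int.mul_ediv_cancel_left _ (by norm_num), Int.mul_ediv_cancel_left _ (by norm_num),
    Int.mul_ediv_cancel_left _ (by norm_num), Int.cast_add]

theorem Bf_add_right {x y z : leechLattice} (hx : SO x) (hy : SO y) (hz : SO z) : Bf z (x + y) = Bf z x + Bf z y := by
  rw [Bf_comm, Bf_add_left hx hy hz, Bf_comm x, Bf_comm y]

theorem Bf_zero_left (y : leechLattice) : Bf 0 y = 0 := by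
  unfold Bf dotInt
  have : ∑ i, ((0 : leechLattice) : GolayPt → ℤ) i * (y : GolayPt → ℤ) i = 0 := Finset.sum_eq_zero (fun i _ => by
    show (0 : ℤ) * _ = 0
    ring)
  rw [this]; rfl

theorem Bf_neg_left (x y : leechLattice) (hx : SO x) (hy : SO y) : Bf (-x) y = Bf x y := by
  have h1 := Bf_add_left hx hx.neg hy
  rw [add_neg_cancel, Bf_zero_left] at h1
  have : ∀ a b : ZMod 2, 0 = a + b → b = a := by decide
  exact this _ _ h1

/-- vector with given coordinates on the octad -/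
def vecP (a : Fin 8 → ℤ) : GolayPt → ℤ := fun q =>
  if q = none then a 0 else if q = some 0 then a 1 else if q = some 1 then a 2 else if q = some 2 then a 3 else
  if q = some 3 then a 4 else if q = some 5 then a 5 else if q = some 14 then a 6 else if q = some 17 then a 7 else 0

theorem vecP_P (a : Fin 8 → ℤ) : ∀ i, vecP a (P i) = a i := by
  intro i
  fin_cases i <;> rfl

theorem P_forall {p : GolayPt → Prop} (h : ∀ i, p (P i)) : ∀ q ∈ o0, p q := by
  intro q hq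
  obtain ⟨i, rfl⟩ := exists_P hq
  exact h i

theorem vecP_out (a : Fin 8 → ℤ) {q : GolayPt} (hq : q ∉ o0) : vecP a q = 0 := by
  have h : ∀ i, q ≠ P i := by
    rintro i rfl
    exact hq (P_mem i)
  unfold vecP
  rw [if_neg (show q ≠ none from h 0), if_neg (show q ≠ some 0 from h 1), if_neg (show q ≠ some 1 from h 2),
    if_neg (show q ≠ some 2 from h 3), if_neg (show q ≠ some 3 from h 4), if_neg (show q ≠ some 5 from h 5),
    if_neg (show q ≠ some 14 from h 6), if_neg (show q ≠ some 17 from h 7)]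

/-- parameters of the basis -/
def bu : Fin 3 ⊕ Fin 3 → Fin 8 → ℤ
  | Sum.inl 0 => ![0, 0, 1, -1, 0, 0, 0, 0]
  | Sum.inl 1 => ![0, 0, 0, 0, 0, 1, -1, 0]
  | Sum.inl 2 => ![1, -1, 0, 0, 0, 0, 0, 0]
  | Sum.inr 0 => ![0, 0, 0, 1, -1, 0, 0, 0]
  | Sum.inr 1 => ![0, 0, 0, 0, 0, 0, 1, -1]
  | Sum.inr 2 => ![0, -1, -1, -1, -1, 0, 0, 0]

def be : Fin 3 ⊕ Fin 3 → ℤ
  | Sum.inr 2 => 1
  | _ => 0

def bs : Fin 3 ⊕ Fin 3 → ℤ
  | Sum.inr 2 => -2
  | _ => 0

def bvec (k : Fin 3 ⊕ Fin 3) : GolayPt → ℤ := vecP (fun i => 4 * bu k i + 2 * be k)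

theorem bvec_mem (k : Fin 3 ⊕ Fin 3) : bvec k ∈ leechLattice := by
  apply mem_of_test
  revert k
  decide +kernel

/-- the basis -/
def bb (k : Fin 3 ⊕ Fin 3) : leechLattice := ⟨bvec k, bvec_mem k⟩

theorem par_bb (k : Fin 3 ⊕ Fin 3) : Par (bb k : GolayPt → ℤ) (bu k) (be k) (bs k) where
  supp := fun q hq => vecP_out (fun i => 4 * bu k i + 2 * be k) hq
  co := fun i => vecP_P (fun i => 4 * bu k i + 2 * be k) i
  sm := by revert k; decide
  e01 := by revert k; decide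

theorem SO_bb (k : Fin 3 ⊕ Fin 3) : SO (bb k) := fun q hq => (par_bb k).supp q hq

theorem bb_mem (k : Fin 3 ⊕ Fin 3) : bb k ∈ E := by
  refine ⟨SO_bb k, ?_⟩
  have h1 := (par_bb k).co 0
  have h2 := (par_bb k).co 1
  show (bb k : GolayPt → ℤ) (P 0) + (bb k : GolayPt → ℤ) (P 1) = 0
  rw [h1, h2]
  revert k; decide

/-- coordinates -/
def pr (x : leechLattice) : Fin 3 ⊕ Fin 3 → ZMod 2
  | Sum.inl i => Bf x (bb (Sum.inr i))
  | Sum.inr i => Bf x (bb (Sum.inl i))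

theorem pr_add {x y : leechLattice} (hx : SO x) (hy : SO y) : pr (x + y) = pr x + pr y := by
  funext k
  rcases k with i | i
  · exact Bf_add_left hx hy (SO_bb _)
  · exact Bf_add_left hx hy (SO_bb _)

theorem pr_zero : pr 0 = 0 := by
  funext k
  rcases k with i | i
  · exact Bf_zero_left _
  · exact Bf_zero_left _

theorem pr_neg {x : leechLattice} (hx : SO x) : pr (-x) = pr x := by
  funext k
  rcases k with i | i
  · exact Bf_neg_left _ _ hx (SO_bb _)
  · exact Bf_neg_left _ _ hx (SO_bb _)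

theorem pr_par {x : leechLattice} {u : Fin 8 → ℤ} {e s : ℤ} (h : Par (x : GolayPt → ℤ) u e s) :
    pr x (Sum.inl 0) = ((u 3 - u 4 : ℤ) : ZMod 2) ∧ pr x (Sum.inl 1) = ((u 6 - u 7 : ℤ) : ZMod 2) ∧
    pr x (Sum.inl 2) = ((-(u 1 + u 2 + u 3 + u 4) + s : ℤ) : ZMod 2) ∧ pr x (Sum.inr 0) = ((u 2 - u 3 : ℤ) : ZMod 2) ∧
    pr x (Sum.inr 1) = ((u 5 - u 6 : ℤ) : ZMod 2) ∧ pr x (Sum.inr 2) = ((u 0 - u 1 : ℤ) : ZMod 2) := by
  refine ⟨?_, ?_, ?_, ?_, ?_, ?_⟩
  · show Bf x (bb (Sum.inr 0)) = _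
    rw [Bf_par h (par_bb _), Fin.sum_univ_eight]
    congr 1
    simp [bu, be, bs]
    ring
  · show Bf x (bb (Sum.inr 1)) = _
    rw [Bf_par h (par_bb _), Fin.sum_univ_eight]
    congr 1
    simp [bu, be, bs]
    ring
  · show Bf x (bb (Sum.inr 2)) = _
    rw [Bf_par h (par_bb _), Fin.sum_univ_eight]
    congr 1
    simp [bu, be, bs]
    ring
  · show Bf x (bb (Sum.inl 0)) = _
    rw [Bf_par h (par_bb _), Fin.sum_univ_eight]
    congr 1
    simp [bu, be, bs]
    ring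
  · show Bf x (bb (Sum.inl 1)) = _
    rw [Bf_par h (par_bb _), Fin.sum_univ_eight]
    congr 1
    simp [bu, be, bs]
    ring
  · show Bf x (bb (Sum.inl 2)) = _
    rw [Bf_par h (par_bb _), Fin.sum_univ_eight]
    congr 1
    simp [bu, be, bs]
    ring

theorem E_u1 {x : leechLattice} (hx : x ∈ E) {u : Fin 8 → ℤ} {e s : ℤ} (h : Par (x : GolayPt → ℤ) u e s) : u 1 = -u 0 - e := by
  have h1 := h.co 0
  have h2 := h.co 1
  have h3 : (x : GolayPt → ℤ) (P 0) + (x : GolayPt → ℤ) (P 1) = 0 := hx.2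
  rw [h1, h2] at h3
  omega

/-- the form is the standard form -/
theorem Bf_eq {x y : leechLattice} (hx : x ∈ E) (hy : y ∈ E) : Bf x y = sf (pr x) (pr y) := by
  obtain ⟨u, e, s, h1⟩ := exists_par hx.1
  obtain ⟨w, f, t, h2⟩ := exists_par hy.1
  have hu1 := E_u1 hx h1
  have hw1 := E_u1 hy h2
  have hu7 : u 7 = 2 * s + e - (u 2 + u 3 + u 4 + u 5 + u 6) := by
    have := h1.sm
    rw [Fin.sum_univ_eight, hu1] at this
    linarith
  have hw7 : w 7 = 2 * t + f - (w 2 + w 3 + w 4 + w 5 + w 6) := by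
    have := h2.sm
    rw [Fin.sum_univ_eight, hw1] at this
    linarith
  obtain ⟨a1, a2, a3, a4, a5, a6⟩ := pr_par h1
  obtain ⟨b1, b2, b3, b4, b5, b6⟩ := pr_par h2
  rw [Bf_par h1 h2, Fin.sum_univ_eight]
  unfold sf
  rw [Fin.sum_univ_three, a1, a2, a3, a4, a5, a6, b1, b2, b3, b4, b5, b6, hu1, hu7, hw1, hw7]
  push_cast
  have h2' : (2 : ZMod 2) = 0 := rfl
  generalize (u 0 : ZMod 2) = u0
  generalize (u 2 : ZMod 2) = u2
  generalize (u 3 : ZMod 2) = u3
  generalize (u 4 : ZMod 2) = u4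
  generalize (u 5 : ZMod 2) = u5
  generalize (u 6 : ZMod 2) = u6
  generalize (w 0 : ZMod 2) = w0
  generalize (w 2 : ZMod 2) = w2
  generalize (w 3 : ZMod 2) = w3
  generalize (w 4 : ZMod 2) = w4
  generalize (w 5 : ZMod 2) = w5
  generalize (w 6 : ZMod 2) = w6
  generalize (e : ZMod 2) = e
  generalize (s : ZMod 2) = s
  generalize (f : ZMod 2) = f
  generalize (t : ZMod 2) = t
  linear_combination ((2)*e*f + (2)*e*t + (-1)*e*w2 + (-1)*e*w3 + (-1)*e*w4 + (-1)*e*w6 + (1)*f*s + (1)*f*u0 + (-1)*f*u5 + (2)*s*t + (-1)*s*w0 + (-1)*s*w2 + (-1)*s*w3 + (-1)*s*w4 + (-2)*s*w6 + (1)*t*u0 + (-1)*t*u2 + (-1)*t*u3 + (-1)*t*u4 + (-2)*t*u5 + (1)*u0*w0 + (-1)*u0*w2 + (-1)*u0*w3 + (-1)*u0*w4 + (1)*u2*w0 + (1)*u2*w2 + (1)*u2*w3 + (1)*u2*w6 + (1)*u3*w0 + (1)*u3*w3 + (1)*u3*w4 + (1)*u3*w6 + (1)*u4*w0 + (1)*u4*w2 + (1)*u4*w4 + (1)*u4*w6 + (1)*u5*w2 + (1)*u5*w3 + (1)*u5*w4 + (1)*u5*w5 + (2)*u5*w6 + (-1)*u6*w5 + (1)*u6*w6) * h2'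

end Cfsg.Agent.C2
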