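import Cfsg.Agent.C2.Ker
import Cfsg.Agent.H90.Extraspecial

/-!
# The kernel is extraspecial of order 2^9
-/

set_option autoImplicit false

namespace Cfsg.Agent.C2

open Cfsg Cfsg.Agent.Leech Cfsg.Agent.Golay Cfsg.Agent.ClassSp
open scoped Pointwise

/-- words disjoint from the octad -/
def DC (c : GolayPt → ZMod 2) : Prop := c ∈ golayCode ∧ ∀ q ∈ o0, c q = 0

def z1 (m : ℕ) : Bool := Nat.beq (Nat.land 8536111 m) 0

theorem cnt32 : countBin (fun n => z1 (enc n)) 12 0 = 32 := by decide +kernel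

theorem z1_iff {c : GolayPt → ZMod 2} : z1 (maskOf (support₂ c)) = true ↔ ∀ q ∈ o0, c q = 0 := by
  unfold z1
  rw [Nat.beq_eq]
  have h2 := maskOf_inter o0 (support₂ c)
  rw [maskOf_ofMask (by norm_num)] at h2
  have h3 : maskOf ∅ = 0 := by decide +kernel
  show 8536111 &&& maskOf (support₂ c) = 0 ↔ _
  rw [← h2]
  constructor
  · intro h q hq
    have h4 : o0 ∩ support₂ c = ∅ := by
      rw [← ofMask_maskOf (o0 ∩ support₂ c), h, ← h3, ofMask_maskOf]
    by_contra hn
    have : q ∈ o0 ∩ support₂ c := Finset.mem_inter.2 ⟨hq, by simpa [support₂] using hn⟩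
    rw [h4] at this
    exact absurd this (Finset.notMem_empty q)
  · intro h
    have h1 : o0 ∩ support₂ c = ∅ := by
      rw [Finset.eq_empty_iff_forall_notMem]
      intro q hq
      rw [Finset.mem_inter] at hq
      have := h q hq.1
      have h5 := hq.2
      simp [support₂] at h5
      exact h5 this
    rw [h1, h3]

theorem card_DC : Nat.card {c : GolayPt → ZMod 2 // DC c} = 32 := by
  have h := ncard_supports z1
  rw [cnt32, ← Nat.card_coe_set_eq] at h
  rw [← h]
  apply Nat.card_congr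
  apply Equiv.ofBijective (fun c : {c : GolayPt → ZMod 2 // DC c} => (⟨support₂ c.1, ⟨c.1, c.2.1, rfl⟩, z1_iff.2 c.2.2⟩ :
    {s : Finset GolayPt | s ∈ supports (golayCode : Set (GolayPt → ZMod 2)) ∧ z1 (maskOf s) = true}))
  constructor
  · intro a b hab
    exact Subtype.ext (support₂_injective (congrArg Subtype.val hab))
  · rintro ⟨s, ⟨c, hc, rfl⟩, h2⟩
    exact ⟨⟨c, hc, z1_iff.1 h2⟩, rfl⟩

theorem exists_tab {σ : Equiv.Perm GolayPt} (hσ : σ ∈ fixM24 o0) : ∃ n ∈ E16, IsTable n σ := by
  obtain ⟨i, hi⟩ := e16_surjective ⟨σ, hσ⟩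
  have h1 := isTable_e16 i
  rw [hi] at h1
  have hmem : E16.getD i 0 ∈ E16 := by
    have : ∀ i : Fin 16, E16.getD i 0 ∈ E16 := by decide +kernel
    exact this i
  exact ⟨_, hmem, h1⟩

def chk1 (m : ℕ) : Bool := match z1 m with
  | true => Orb.allB E16 (fun n => match Nat.beq (pmask n m) m with
    | true => true
    | false => Nat.beq (pmask n m) (Nat.xor m 8241104))
  | false => true

theorem chk1_all : allCode chk1 = true := by decide +kernel

def B5 : List ℕ := [337856, 628112, 1161408, 2141072, 4202192]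

theorem B5_ok : ∀ m ∈ B5, inCode m = true ∧ z1 m = true := by decide +kernel

theorem chk2 : ∀ n ∈ E16, (∀ m ∈ B5, pmask n m = m) → n = idTab := by decide +kernel

def chk3 (m : ℕ) : Bool := match z1 m with
  | true => match Orb.allB E16 (fun n => Nat.beq (pmask n m) m) with
    | true => match Nat.beq m 0 with
      | true => true
      | false => Nat.beq m 8241104
    | false => true
  | false => true

theorem chk3_all : allCode chk3 = true := by decide +kernel

theorem wO_support : maskOf (support₂ wO) = 8241104 := by decide +kernel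

theorem xor_aux (p q : Prop) : ((p ∧ ¬q) ∨ (q ∧ ¬p)) ↔ ¬(p ↔ q) := by tauto

/-- action of the translations on the words -/
theorem word_trans {c : GolayPt → ZMod 2} (hc : DC c) {σ : Equiv.Perm GolayPt} (hσ : σ ∈ fixM24 o0) :
    (∀ j, c (σ.symm j) = c j) ∨ (∀ j, c (σ.symm j) = c j + wO j) := by
  obtain ⟨n, hn, hT⟩ := exists_tab hσ
  have h1 := forall_inCode chk1_all (mem_golayCode_iff.1 hc.1)
  unfold chk1 at h1
  rw [z1_iff.2 hc.2] at h1
  have h2 := Orb.allB_iff.1 h1 n hn
  have h3 := maskOf_smul hT (support₂ c)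
  have hz : ∀ (a : GolayPt → ZMod 2) j, j ∈ support₂ a ↔ a j ≠ 0 := by intro a j; simp [support₂]
  have hsm : ∀ j, j ∈ σ • support₂ c ↔ c (σ.symm j) ≠ 0 := by
    intro j
    rw [Finset.mem_smul_finset, ← hz]
    constructor
    · rintro ⟨p, hp, rfl⟩
      rw [Equiv.Perm.smul_def, Equiv.symm_apply_apply]; exact hp
    · intro h; exact ⟨_, h, by rw [Equiv.Perm.smul_def, Equiv.apply_symm_apply]⟩
  have key : ∀ a b : ZMod 2, (a ≠ 0 ↔ b ≠ 0) → a = b := by decide
  have key2 : ∀ a b d : ZMod 2, (a ≠ 0 ↔ ¬ (b ≠ 0 ↔ d ≠ 0)) → a = b + d := by decide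
  by_cases h4 : pmask n (maskOf (support₂ c)) = maskOf (support₂ c)
  · left
    have h5 : σ • support₂ c = support₂ c := by
      rw [← ofMask_maskOf (σ • support₂ c), h3, h4, ofMask_maskOf]
    intro j
    apply key
    rw [← hsm, h5, hz]
  · right
    have h6 : Nat.beq (pmask n (maskOf (support₂ c))) (maskOf (support₂ c)) = false := by
      rw [Bool.eq_false_iff]
      intro h
      exact h4 (Nat.eq_of_beq_eq_true h)
    rw [h6] at h2
    have h7 := Nat.eq_of_beq_eq_true h2
    have h5 : σ • support₂ c = symmDiff (support₂ c) (support₂ wO) := by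
      rw [← ofMask_maskOf (σ • support₂ c), h3, h7, ← wO_support]
      show ofMask (maskOf (support₂ c) ^^^ maskOf (support₂ wO)) = _
      rw [ofMask_xor, ofMask_maskOf, ofMask_maskOf]
    intro j
    apply key2
    rw [← hsm, h5, Finset.mem_symmDiff, hz, hz]
    exact xor_aux _ _

theorem trans_nontrivial {σ : Equiv.Perm GolayPt} (hσ : σ ∈ fixM24 o0) (h1 : σ ≠ 1) : ∃ c, DC c ∧ ∃ j, c (σ.symm j) ≠ c j := by
  obtain ⟨n, hn, hT⟩ := exists_tab hσ
  by_contra hcon
  push Not at hcon
  apply h1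
  have h2 : n = idTab := by
    apply chk2 n hn
    intro m hm
    obtain ⟨hm1, hm2⟩ := B5_ok m hm
    have hlt := inCode_lt hm1
    obtain ⟨c, hc, hcs⟩ := ofMask_mem_supports hm1
    have hmask : maskOf (support₂ c) = m := by rw [hcs, maskOf_ofMask hlt]
    have h3 := hcon c ⟨hc, z1_iff.1 (by rw [hmask]; exact hm2)⟩
    have h4 : σ • support₂ c = support₂ c := by
      ext j
      rw [Finset.mem_smul_finset]
      constructor
      · rintro ⟨p, hp, rfl⟩
        have h5 := h3 (σ p)
        rw [Equiv.symm_apply_apply] at h5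
        simp only [support₂, Finset.mem_filter, Finset.mem_univ, true_and] at hp ⊢
        rw [Equiv.Perm.smul_def, ← h5]; exact hp
      · intro hj
        refine ⟨σ.symm j, ?_, by rw [Equiv.Perm.smul_def, Equiv.apply_symm_apply]⟩
        simp only [support₂, Finset.mem_filter, Finset.mem_univ, true_and] at hj ⊢
        rw [h3]; exact hj
    have h6 := maskOf_smul hT (support₂ c)
    rw [h4, hmask] at h6
    exact h6.symm
  rw [h2] at hT
  exact isTable_unique hT isTable_one

theorem word_nontrivial {c : GolayPt → ZMod 2} (hc : DC c) (h0 : c ≠ 0) (h1 : c ≠ wO) : ∃ σ ∈ fixM24 o0, ∃ j, c (σ.symm j) ≠ c j := by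
  by_contra hcon
  push Not at hcon
  have h2 := forall_inCode chk3_all (mem_golayCode_iff.1 hc.1)
  unfold chk3 at h2
  rw [z1_iff.2 hc.2] at h2
  have h3 : Orb.allB E16 (fun n => Nat.beq (pmask n (maskOf (support₂ c))) (maskOf (support₂ c))) = true := by
    rw [Orb.allB_iff]
    intro n hn
    rw [Nat.beq_eq]
    obtain ⟨i, rfl⟩ : ∃ i : Fin 16, E16.getD i 0 = n := by
      have : ∀ n ∈ E16, ∃ i : Fin 16, E16.getD i 0 = n := by decide +kernel
      exact this n hn
    have hT := isTable_e16 i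
    have h4 := hcon _ (e16 i).2
    have h5 : (e16 i : Equiv.Perm GolayPt) • support₂ c = support₂ c := by
      ext j
      rw [Finset.mem_smul_finset]
      constructor
      · rintro ⟨p, hp, rfl⟩
        have h5 := h4 ((e16 i : Equiv.Perm GolayPt) p)
        rw [Equiv.symm_apply_apply] at h5
        simp only [support₂, Finset.mem_filter, Finset.mem_univ, true_and] at hp ⊢
        rw [Equiv.Perm.smul_def, ← h5]; exact hp
      · intro hj
        refine ⟨(e16 i : Equiv.Perm GolayPt).symm j, ?_, by rw [Equiv.Perm.smul_def, Equiv.apply_symm_apply]⟩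
        simp only [support₂, Finset.mem_filter, Finset.mem_univ, true_and] at hj ⊢
        rw [h4]; exact hj
    have h6 := maskOf_smul hT (support₂ c)
    rw [h5] at h6
    exact h6.symm
  rw [h3] at h2
  by_cases h4 : maskOf (support₂ c) = 0
  · apply h0
    apply support₂_injective
    have h5 : maskOf (support₂ (0 : GolayPt → ZMod 2)) = 0 := by decide +kernel
    rw [← ofMask_maskOf (support₂ c), h4, ← h5, ofMask_maskOf]
  · have h6 : Nat.beq (maskOf (support₂ c)) 0 = false := by
      rw [Bool.eq_false_iff]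
      intro h
      exact h4 (Nat.eq_of_beq_eq_true h)
    rw [h6] at h2
    apply h1
    apply support₂_injective
    rw [← ofMask_maskOf (support₂ c), Nat.eq_of_beq_eq_true h2, ← wO_support, ofMask_maskOf]

theorem fix_comm {σ τ : Equiv.Perm GolayPt} (hσ : σ ∈ fixM24 o0) (hτ : τ ∈ fixM24 o0) : σ * τ = τ * σ := by
  have h1 := fixM24_o0_square hσ
  have h2 := fixM24_o0_square hτ
  have h3 := fixM24_o0_square ((fixM24 o0).mul_mem hσ hτ)
  calc σ * τ = σ * τ * ((σ * τ) * (σ * τ)) := by rw [h3, mul_one]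
    _ = 1 * (σ * τ) * 1 := by rw [one_mul, mul_one, h3, mul_one]
    _ = (τ * τ) * (σ * τ) * (σ * σ) := by rw [h1, h2]
    _ = τ * (τ * σ * (τ * σ)) * σ := by group
    _ = τ * σ := by
      have h4 := fixM24_o0_square ((fixM24 o0).mul_mem hτ hσ)
      rw [h4, mul_one]

/-- elements of the kernel -/
def kel (c : GolayPt → ZMod 2) (hc : DC c) (σ : Equiv.Perm GolayPt) (hσ : σ ∈ fixM24 o0) : Co0 :=
  flipElt c hc.1 * permElt σ (mem_fixM24.1 hσ).1

theorem kel_smul {c : GolayPt → ZMod 2} {hc : DC c} {σ : Equiv.Perm GolayPt} {hσ : σ ∈ fixM24 o0} (x : leechLattice) (j : GolayPt) :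
    ((kel c hc σ hσ • x : leechLattice) : GolayPt → ℤ) j = (1 - 2 * lift c j) * (x : GolayPt → ℤ) (σ.symm j) :=
  mono_smul c hc.1 σ (mem_fixM24.1 hσ).1 x j

theorem kel_e8 {c : GolayPt → ZMod 2} {hc : DC c} {σ : Equiv.Perm GolayPt} {hσ : σ ∈ fixM24 o0} {q : GolayPt} (hq : q ∈ o0) :
    kel c hc σ hσ • e8 q = e8 q := by
  have h1 := (mem_fixM24.1 hσ).2 q hq
  apply Subtype.ext
  funext j
  rw [kel_smul, e8_apply, e8_apply]
  by_cases hj : j = q
  · subst hj
    rw [if_pos rfl, if_pos, (lift_eq_zero_iff c j).2 (hc.2 j hq)]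
    · ring
    · rw [Equiv.symm_apply_eq]; exact h1.symm
  · rw [if_neg hj, if_neg, mul_zero]
    intro h
    rw [Equiv.symm_apply_eq] at h
    exact hj (h.trans h1)

theorem U_expr : (2 : ℤ) • Spor.leechU = e8 none + e8 pz := by
  apply Subtype.ext
  funext q
  rw [coe_zsmul']
  show 2 * Spor.vecU q = (e8 none : GolayPt → ℤ) q + (e8 pz : GolayPt → ℤ) q
  rw [e8_apply, e8_apply]
  revert q; decide +kernel

theorem mem_D_of_e8 {g : Co0} (h : ∀ q ∈ o0, g • e8 q = e8 q) : g ∈ D := by
  rw [mem_D]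
  have hU : g • Spor.leechU = Spor.leechU := by
    apply zsmul_inj (n := 2) (by norm_num)
    rw [← co0_zsmul, U_expr, co0_add, h none (P_mem 0), h pz (P_mem 1)]
  refine ⟨?_, hU⟩
  obtain ⟨c, hc, σ, hσ, rfl⟩ := mem_crossStab_mono (cross_of_e8 (h none (P_mem 0)))
  have hσq : ∀ q ∈ o0, σ q = q := fun q hq => mono_point (c := c) (hc := hc) (hσ := hσ) (Or.inl (h q hq))
  apply co0_ext
  intro x
  apply Subtype.ext
  funext j
  rw [mul_smul tE, mul_smul (flipElt c hc * permElt σ hσ) tE]
  by_cases hj : j ∈ o0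
  · have h1 : σ.symm j ∈ o0 := by
      have := hσq j hj
      rw [← Equiv.eq_symm_apply] at this
      rw [← this]; exact hj
    rw [tE_in hj, mono_smul, mono_smul, tE_in h1]
  · have h1 : σ.symm j ∉ o0 := by
      intro hn
      apply hj
      have := hσq _ hn
      rw [Equiv.apply_symm_apply] at this
      rw [this]; exact hn
    rw [tE_out hj, mono_smul, mono_smul, tE_out h1]; ring

/-- description of the kernel -/
theorem mem_ker (g : D) : F g = 1 ↔ ∃ c, ∃ hc : DC c, ∃ σ, ∃ hσ : σ ∈ fixM24 o0, g.1 = kel c hc σ hσ := by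
  constructor
  · intro h
    have h1 := ker_fix h
    obtain ⟨c, hc, σ, hσ, hg⟩ := mem_crossStab_mono (cross_of_e8 (h1 none (P_mem 0)))
    have hσq : ∀ q ∈ o0, σ q = q := fun q hq => mono_point (c := c) (hc := hc) (hσ := hσ) (Or.inl (by rw [← hg]; exact h1 q hq))
    refine ⟨c, ⟨hc, ?_⟩, σ, mem_fixM24.2 ⟨hσ, hσq⟩, hg⟩
    intro q hq
    have h2 := congrArg (fun z : leechLattice => (z : GolayPt → ℤ) q) (h1 q hq)
    rw [hg] at h2
    simp only [mono_smul, e8_apply, if_true] at h2
    rw [if_pos (by rw [Equiv.symm_apply_eq]; exact (hσq q hq).symm)] at h2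
    rw [← lift_eq_zero_iff]
    rcases lift_zero_or_one c q with h3 | h3
    · exact h3
    · rw [h3] at h2; norm_num at h2
  · rintro ⟨c, hc, σ, hσ, hg⟩
    apply F_one_of_fix
    intro q hq
    rw [hg]
    exact kel_e8 hq

/-- the bijection with pairs -/
theorem card_ker : Nat.card F.ker = 2 ^ 9 := by
  have h1 : Nat.card F.ker = Nat.card ({c : GolayPt → ZMod 2 // DC c} × fixM24 o0) := by
    symm
    apply Nat.card_congr
    apply Equiv.ofBijective (fun p : {c : GolayPt → ZMod 2 // DC c} × fixM24 o0 =>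
      (⟨⟨kel p.1.1 p.1.2 p.2.1 p.2.2, mem_D_of_e8 (fun q hq => kel_e8 hq)⟩, (mem_ker _).2 ⟨p.1.1, p.1.2, p.2.1, p.2.2, rfl⟩⟩ : F.ker))
    constructor
    · rintro ⟨⟨c, hc⟩, ⟨σ, hσ⟩⟩ ⟨⟨c', hc'⟩, ⟨σ', hσ'⟩⟩ h
      have h2 : kel c hc σ hσ = kel c' hc' σ' hσ' := congrArg (fun z : F.ker => z.1.1) h
      obtain ⟨rfl, rfl⟩ := mono_injective h2
      rfl
    · rintro ⟨g, hg⟩
      obtain ⟨c, hc, σ, hσ, h2⟩ := (mem_ker g).1 hg
      refine ⟨(⟨c, hc⟩, ⟨σ, hσ⟩), ?_⟩
      apply Subtype.ext
      apply Subtype.ext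
      exact h2.symm
  rw [h1, Nat.card_prod, card_DC, card_fixM24_o0]
  norm_num

theorem DC_wO : DC wO := ⟨wO_mem, fun _ hq => if_pos hq⟩

theorem tE_eq' : tE = kel wO DC_wO 1 (fixM24 o0).one_mem := by
  apply co0_ext
  intro x
  apply Subtype.ext
  funext j
  rw [kel_smul, tE, flipElt_apply]
  rfl

theorem tE_eq : ∃ (hc : DC wO) (hσ : (1 : Equiv.Perm GolayPt) ∈ fixM24 o0), tE = kel wO hc 1 hσ :=
  ⟨DC_wO, (fixM24 o0).one_mem, tE_eq'⟩

theorem tE_mem_D : tE ∈ D := by
  obtain ⟨hc, hσ, h⟩ := tE_eq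
  rw [h]
  exact mem_D_of_e8 (fun q hq => kel_e8 hq)

theorem sgn_add {c d : GolayPt → ZMod 2} (j : GolayPt) : (1 - 2 * lift (c + d) j) = (1 - 2 * lift c j) * (1 - 2 * lift d j) := by
  unfold lift
  have : ∀ a b : ZMod 2, (1 - 2 * ((a + b).val : ℤ)) = (1 - 2 * (a.val : ℤ)) * (1 - 2 * (b.val : ℤ)) := by decide
  exact this _ _

theorem lift_congr {c d : GolayPt → ZMod 2} {i j : GolayPt} (h : c i = d j) : lift c i = lift d j := by
  unfold lift; rw [h]

theorem sgn_sq (c : GolayPt → ZMod 2) (j : GolayPt) : (1 - 2 * lift c j) * (1 - 2 * lift c j) = 1 := by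
  rcases lift_zero_or_one c j with h | h <;> rw [h] <;> norm_num

/-- elementwise extraspecial -/
theorem xs : H90.XS F.ker (⟨tE, tE_mem_D⟩ : D) where
  mem := by
    obtain ⟨hc, hσ, h⟩ := tE_eq
    exact (mem_ker _).2 ⟨_, hc, _, hσ, h⟩
  ne_one := by
    intro h
    have h1 : tE = 1 := congrArg Subtype.val h
    have h2 := congrArg (fun g : Co0 => ((g • e8 (some 4) : leechLattice) : GolayPt → ℤ) (some 4)) h1
    simp only [one_smul] at h2
    rw [tE_out (by decide +kernel), e8_apply, if_pos rfl] at h2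
    norm_num at h2
  sq := by
    apply Subtype.ext
    show tE * tE = 1
    apply co0_ext
    intro x
    apply Subtype.ext
    funext j
    rw [mul_smul, one_smul]
    by_cases hj : j ∈ o0
    · rw [tE_in hj, tE_in hj]
    · rw [tE_out hj, tE_out hj, neg_neg]
  central := by
    intro q _
    apply Subtype.ext
    exact (mem_D.1 q.2).1.symm
  comm := by
    intro x hx y hy
    obtain ⟨c, hc, σ, hσ, h1⟩ := (mem_ker x).1 hx
    obtain ⟨d, hd, τ, hτ, h2⟩ := (mem_ker y).1 hy
    have hxy : ∀ (z : leechLattice) j, (((x.1 * y.1) • z : leechLattice) : GolayPt → ℤ) j =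
        (1 - 2 * lift c j) * (1 - 2 * lift d (σ.symm j)) * (z : GolayPt → ℤ) (τ.symm (σ.symm j)) := by
      intro z j
      rw [mul_smul, h1, kel_smul, h2, kel_smul]; ring
    have hyx : ∀ (z : leechLattice) j, (((y.1 * x.1) • z : leechLattice) : GolayPt → ℤ) j =
        (1 - 2 * lift d j) * (1 - 2 * lift c (τ.symm j)) * (z : GolayPt → ℤ) (σ.symm (τ.symm j)) := by
      intro z j
      rw [mul_smul, h2, kel_smul, h1, kel_smul]; ring
    have hst : ∀ j, τ.symm (σ.symm j) = σ.symm (τ.symm j) := by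
      intro j
      have := fix_comm hσ hτ
      have h3 := congrArg (fun ρ : Equiv.Perm GolayPt => ρ⁻¹ j) this
      simp only [mul_inv_rev] at h3
      exact h3
    have htz : ∀ (z : leechLattice) j, ((tE • z : leechLattice) : GolayPt → ℤ) j = (1 - 2 * lift wO j) * (z : GolayPt → ℤ) j := by
      intro z j
      rw [tE, flipElt_apply]
    rcases word_trans hd hσ with h3 | h3 <;> rcases word_trans hc hτ with h4 | h4
    · left
      apply Subtype.ext
      apply co0_ext
      intro z
      apply Subtype.ext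
      funext j
      show (((x.1 * y.1) • z : leechLattice) : GolayPt → ℤ) j = (((y.1 * x.1) • z : leechLattice) : GolayPt → ℤ) j
      rw [hxy, hyx, hst, lift_congr (h3 j), lift_congr (h4 j)]; ring
    · right
      apply Subtype.ext
      apply co0_ext
      intro z
      apply Subtype.ext
      funext j
      show (((x.1 * y.1) • z : leechLattice) : GolayPt → ℤ) j = (((tE * (y.1 * x.1)) • z : leechLattice) : GolayPt → ℤ) j
      rw [mul_smul tE, htz, hxy, hyx, hst, lift_congr (h3 j), lift_congr (d := c + wO) (h4 j), sgn_add]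
      have := sgn_sq wO j
      linear_combination (-(1 - 2 * lift c j) * (1 - 2 * lift d j) * (z : GolayPt → ℤ) (σ.symm (τ.symm j))) * this
    · right
      apply Subtype.ext
      apply co0_ext
      intro z
      apply Subtype.ext
      funext j
      show (((x.1 * y.1) • z : leechLattice) : GolayPt → ℤ) j = (((tE * (y.1 * x.1)) • z : leechLattice) : GolayPt → ℤ) j
      rw [mul_smul tE, htz, hxy, hyx, hst, lift_congr (d := d + wO) (h3 j), lift_congr (h4 j), sgn_add]
      ring
    · left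
      apply Subtype.ext
      apply co0_ext
      intro z
      apply Subtype.ext
      funext j
      show (((x.1 * y.1) • z : leechLattice) : GolayPt → ℤ) j = (((y.1 * x.1) • z : leechLattice) : GolayPt → ℤ) j
      rw [hxy, hyx, hst, lift_congr (d := d + wO) (h3 j), lift_congr (d := c + wO) (h4 j), sgn_add, sgn_add]
      ring
  nondeg := by
    intro x hx hcom
    obtain ⟨c, hc, σ, hσ, h1⟩ := (mem_ker x).1 hx
    have hone : (1 : Equiv.Perm GolayPt) ∈ fixM24 o0 := (fixM24 o0).one_mem
    have hz0 : DC 0 := ⟨golayCode.zero_mem, fun _ _ => rfl⟩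
    have hmk : ∀ (d : GolayPt → ZMod 2) (hd : DC d) (τ : Equiv.Perm GolayPt) (hτ : τ ∈ fixM24 o0),
        ∀ j, (1 - 2 * lift c j) * (1 - 2 * lift d (σ.symm j)) = (1 - 2 * lift d j) * (1 - 2 * lift c (τ.symm j)) := by
      intro d hd τ hτ j
      have h2 := hcom ⟨kel d hd τ hτ, mem_D_of_e8 (fun q hq => kel_e8 hq)⟩ ((mem_ker _).2 ⟨d, hd, τ, hτ, rfl⟩)
      have h3 : x.1 * kel d hd τ hτ = kel d hd τ hτ * x.1 := congrArg Subtype.val h2
      have h4 := congrArg (fun g : Co0 => ((g • e8 (τ.symm (σ.symm j)) : leechLattice) : GolayPt → ℤ) j) h3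
      simp only [mul_smul] at h4
      have hst : τ.symm (σ.symm j) = σ.symm (τ.symm j) := by
        have := fix_comm hσ hτ
        have h3 := congrArg (fun ρ : Equiv.Perm GolayPt => ρ⁻¹ j) this
        simp only [mul_inv_rev] at h3
        exact h3
      rw [h1, kel_smul, kel_smul, kel_smul, kel_smul, e8_apply, e8_apply, if_pos rfl, if_pos hst.symm] at h4
      linarith
    by_cases hs1 : σ = 1
    · by_cases hc0 : c = 0
      · left
        apply Subtype.ext
        rw [h1]
        subst hs1; subst hc0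
        apply co0_ext
        intro z
        apply Subtype.ext
        funext j
        rw [kel_smul]
        show (1 - 2 * lift 0 j) * (z : GolayPt → ℤ) j = (((1 : Co0) • z : leechLattice) : GolayPt → ℤ) j
        rw [one_smul, lift_zero]; ring
      · by_cases hcw : c = wO
        · right
          apply Subtype.ext
          rw [h1]
          subst hs1; subst hcw
          obtain ⟨hc', hσ', h⟩ := tE_eq
          exact h.symm
        · exfalso
          obtain ⟨τ, hτ, j, hj⟩ := word_nontrivial hc hc0 hcw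
          have h5 := hmk 0 hz0 τ hτ j
          rw [lift_zero, lift_zero] at h5
          apply hj
          have h6 : lift c j = lift c (τ.symm j) := by linarith
          have : ∀ a b : ZMod 2, ((a.val : ℤ) = (b.val : ℤ)) → b = a := by decide
          exact this _ _ h6
    · exfalso
      obtain ⟨d, hd, j, hj⟩ := trans_nontrivial hσ hs1
      have h5 := hmk d hd 1 hone j
      have h6 : (1 - 2 * lift c j) * (1 - 2 * lift d (σ.symm j)) = (1 - 2 * lift c j) * (1 - 2 * lift d j) := by
        rw [h5]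
        show _ * (1 - 2 * lift c j) = _
        ring
      have h7 : lift d (σ.symm j) = lift d j := by
        rcases lift_zero_or_one c j with h | h <;> rw [h] at h6 <;> linarith
      apply hj
      have : ∀ a b : ZMod 2, ((a.val : ℤ) = (b.val : ℤ)) → a = b := by decide
      exact this _ _ h7

end Cfsg.Agent.C2
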