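import Cfsg.Agent.C2.Surj
import Cfsg.Agent.C2.Extra
import Cfsg.Agent.ClassSp.Simple
import Cfsg.Agent.Fus.Alperin

set_option autoImplicit false
open Cfsg

namespace Cfsg.Agent.C2

open Cfsg.Agent.ClassSp Cfsg.Agent.Golay Cfsg.Agent.Leech
open Matrix

theorem xs_comap {A B : Type*} [Group A] [Group B] (e : A ≃* B) {Q : Subgroup B} {z : B} (h : H90.XS Q z) :
    H90.XS (Q.comap e.toMonoidHom) (e.symm z) where
  mem := by
    show e (e.symm z) ∈ Q
    rw [e.apply_symm_apply]; exact h.mem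
  ne_one := by
    intro h1
    apply h.ne_one
    rw [← e.apply_symm_apply z, h1, map_one]
  sq := by rw [← map_mul, h.sq, map_one]
  central := by
    intro q hq
    apply e.injective
    rw [map_mul, map_mul, e.apply_symm_apply]
    exact h.central _ hq
  comm := by
    intro x hx y hy
    rcases h.comm _ hx _ hy with h1 | h1
    · left
      apply e.injective
      rw [map_mul, map_mul]; exact h1
    · right
      apply e.injective
      rw [map_mul, map_mul, map_mul, e.apply_symm_apply]; exact h1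
  nondeg := by
    intro x hx hc
    rcases h.nondeg _ hx (fun y hy => by
      have h1 := hc (e.symm y) (by show e (e.symm y) ∈ Q; rw [e.apply_symm_apply]; exact hy)
      have h2 := congrArg e h1
      rw [map_mul, map_mul, e.apply_symm_apply] at h2
      exact h2) with h1 | h1
    · left; apply e.injective; rw [map_one]; exact h1
    · right; apply e.injective; rw [e.apply_symm_apply]; exact h1

/-- `O_2(Sp_6(2)) = 1` -/
theorem pcore_sp (N : Subgroup (symplecticGroup (Fin 3) (ZMod 2))) [hN : N.Normal] (h2 : IsPGroup 2 N) : N = ⊥ := by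
  haveI : Fact (Nat.Prime 2) := ⟨Nat.prime_two⟩
  have hcen : Subgroup.center (symplecticGroup (Fin 3) (ZMod 2)) = ⊥ := by
    rw [← Subgroup.card_eq_one]
    have := card_center (l := Fin 3) (F := ZMod 2)
    rw [this, ZMod.card]
    decide
  by_contra hne
  have h3 : ¬ N ≤ Subgroup.center (symplecticGroup (Fin 3) (ZMod 2)) := by
    rw [hcen, le_bot_iff]; exact hne
  have h4 := commutator_le_of_normal N h3
  rw [perfect_fin 3 (Or.inl le_rfl), top_le_iff] at h4
  subst h4
  have h5 : IsPGroup 2 (symplecticGroup (Fin 3) (ZMod 2)) :=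
    h2.of_equiv Subgroup.topEquiv
  haveI : Finite (symplecticGroup (Fin 3) (ZMod 2)) := inferInstance
  haveI : Group.IsNilpotent (symplecticGroup (Fin 3) (ZMod 2)) := h5.isNilpotent
  haveI h6 : Group.IsSolvable (symplecticGroup (Fin 3) (ZMod 2)) := inferInstance
  haveI : Nontrivial (symplecticGroup (Fin 3) (ZMod 2)) := by
    by_contra h
    rw [not_nontrivial_iff_subsingleton] at h
    exact hne (Subsingleton.elim _ _)
  have h7 := Group.IsSolvable.commutator_lt_top_of_nontrivial (symplecticGroup (Fin 3) (ZMod 2))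
  rw [perfect_fin 3 (Or.inl le_rfl)] at h7
  exact lt_irrefl _ h7

theorem exists_noncomm : ∃ a ∈ F.ker, ∃ b ∈ F.ker, a * b ≠ b * a := by
  by_contra hcon
  push Not at hcon
  have hle : ∀ x : D, x ∈ F.ker → x ∈ ({1, ⟨tE, tE_mem_D⟩} : Set D) := by
    intro x hx
    exact xs.nondeg x hx (fun y hy => hcon x hx y hy)
  have h1 : Nat.card F.ker ≤ 2 := by
    have h2 : (F.ker : Set D) ⊆ {1, ⟨tE, tE_mem_D⟩} := hle
    calc Nat.card F.ker = (F.ker : Set D).ncard := rfl
      _ ≤ ({1, ⟨tE, tE_mem_D⟩} : Set D).ncard := Set.ncard_le_ncard h2 (Set.toFinite _)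
      _ ≤ 2 := by
        have h3 := Set.ncard_insert_le (1 : D) {(⟨tE, tE_mem_D⟩ : D)}
        rw [Set.ncard_singleton] at h3
        exact h3
  rw [card_ker] at h1
  norm_num at h1

/-- the involution in `Co2` -/
def t' : ↥Spor.Co2 := ⟨(tE : Equiv.Perm leechLattice), ⟨tE.2, (mem_D.1 tE_mem_D).2⟩⟩

theorem D_comm_iff (c : ↥Spor.Co2) : c ∈ Subgroup.centralizer ({t'} : Set ↥Spor.Co2) ↔
    tE * (⟨c.1, c.2.1⟩ : Co0) = (⟨c.1, c.2.1⟩ : Co0) * tE := by
  rw [Subgroup.mem_centralizer_singleton_iff]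
  constructor
  · intro h
    apply Subtype.ext
    exact (congrArg Subtype.val h).symm
  · intro h
    apply Subtype.ext
    exact (congrArg Subtype.val h).symm

/-- the centralizer of the involution is `D` -/
def Psi : ↥(Subgroup.centralizer ({t'} : Set ↥Spor.Co2)) ≃* D where
  toFun c := ⟨⟨c.1.1, c.1.2.1⟩, mem_D.2 ⟨(D_comm_iff c.1).1 c.2, c.1.2.2⟩⟩
  invFun g := ⟨⟨g.1.1, ⟨g.1.2, (mem_D.1 g.2).2⟩⟩, (D_comm_iff _).2 (mem_D.1 g.2).1⟩
  left_inv c := rfl
  right_inv g := rfl
  map_mul' a b := rfl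

theorem main : ∃ t : ↥Cfsg.Spor.Co2, orderOf t = 2 ∧ Cfsg.IsExtraspecial 2 (Cfsg.pCore 2 ↥(Subgroup.centralizer ({t} : Set ↥Cfsg.Spor.Co2))) ∧ Nat.card (Cfsg.pCore 2 ↥(Subgroup.centralizer ({t} : Set ↥Cfsg.Spor.Co2))) = 2 ^ 9 ∧ Nonempty (↥(Subgroup.centralizer ({t} : Set ↥Cfsg.Spor.Co2)) ⧸ Cfsg.pCore 2 ↥(Subgroup.centralizer ({t} : Set ↥Cfsg.Spor.Co2)) ≃* Matrix.symplecticGroup (Fin 3) (ZMod 2)) := by
  haveI : Fact (Nat.Prime 2) := ⟨Nat.prime_two⟩
  have hsurj : Function.Surjective (F.comp Psi.toMonoidHom) := F_surj.comp Psi.surjective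
  have hker : (F.comp Psi.toMonoidHom).ker = F.ker.comap Psi.toMonoidHom := rfl
  have hcard : Nat.card (F.comp Psi.toMonoidHom).ker = 2 ^ 9 := by
    rw [← card_ker, hker]
    apply Nat.card_congr
    exact Psi.toEquiv.subtypeEquiv (fun a => Iff.rfl)
  have hxs := xs_comap Psi xs
  have hex : IsExtraspecial 2 (F.comp Psi.toMonoidHom).ker := by
    obtain ⟨a, ha, b, hb, hab⟩ := exists_noncomm
    rw [hker]
    refine hxs.isExtraspecial (a := Psi.symm a) (b := Psi.symm b) ?_ ?_ ?_
    · show Psi (Psi.symm a) ∈ F.ker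
      rw [Psi.apply_symm_apply]; exact ha
    · show Psi (Psi.symm b) ∈ F.ker
      rw [Psi.apply_symm_apply]; exact hb
    · rw [← map_mul, ← map_mul]
      exact fun h => hab (Psi.symm.injective h)
  have hcore : pCore 2 ↥(Subgroup.centralizer ({t'} : Set ↥Spor.Co2)) = (F.comp Psi.toMonoidHom).ker := by
    apply le_antisymm
    · have h1 : (pCore 2 ↥(Subgroup.centralizer ({t'} : Set ↥Spor.Co2))).Normal := inferInstance
      haveI h2 := Subgroup.Normal.map h1 _ hsurj
      have h3 := pcore_sp _ ((Fus.isPGroup_pCore 2 ↥(Subgroup.centralizer ({t'} : Set ↥Spor.Co2))).map (F.comp Psi.toMonoidHom))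
      rwa [Subgroup.map_eq_bot_iff] at h3
    · apply Fus.le_pCore inferInstance
      exact IsPGroup.of_card (n := 9) hcard
  refine ⟨t', ?_, ?_, ?_, ?_⟩
  · rw [orderOf_eq_prime_iff]
    constructor
    · rw [pow_two]
      apply Subtype.ext
      have := congrArg (fun g : D => g.1.1) xs.sq
      exact this
    · intro h
      apply xs.ne_one
      apply Subtype.ext
      apply Subtype.ext
      exact congrArg (fun g : ↥Spor.Co2 => g.1) h
  · rw [hcore]; exact hex
  · rw [hcore]; exact hcard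
  · exact ⟨(QuotientGroup.quotientMulEquivOfEq hcore).trans (QuotientGroup.quotientKerEquivOfSurjective _ hsurj)⟩

end Cfsg.Agent.C2
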