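import Cfsg.Agent.C2.Rep

/-!
# The kernel of the representation
-/

set_option autoImplicit false

namespace Cfsg.Agent.C2

open Cfsg Cfsg.Agent.Leech Cfsg.Agent.Golay Cfsg.Agent.ClassSp
open scoped Pointwise

theorem co0_zsmul (g : Co0) (n : ℤ) (x : leechLattice) : g • (n • x) = n • (g • x) :=
  map_zsmul (⟨⟨fun y => g • y, co0_zero g⟩, co0_add g⟩ : leechLattice →+ leechLattice) n x

theorem coe_zsmul' (n : ℤ) (x : leechLattice) (q : GolayPt) : ((n • x : leechLattice) : GolayPt → ℤ) q = n * (x : GolayPt → ℤ) q := by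
  rw [AddSubgroup.coe_zsmul, Pi.smul_apply, smul_eq_mul]

theorem co0_sum (g : Co0) {ι : Type*} (s : Finset ι) (f : ι → leechLattice) : g • (∑ i ∈ s, f i) = ∑ i ∈ s, g • f i :=
  map_sum (⟨⟨fun y => g • y, co0_zero g⟩, co0_add g⟩ : leechLattice →+ leechLattice) f s

theorem coe_sum' {ι : Type*} (s : Finset ι) (f : ι → leechLattice) (q : GolayPt) : ((∑ i ∈ s, f i : leechLattice) : GolayPt → ℤ) q = ∑ i ∈ s, (f i : GolayPt → ℤ) q := by
  rw [AddSubgroup.val_finsetSum, Finset.sum_apply]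

theorem zsmul_inj {n : ℤ} (hn : n ≠ 0) {x y : leechLattice} (h : n • x = n • y) : x = y := by
  apply Subtype.ext
  funext q
  have h1 := congrArg (fun z : leechLattice => (z : GolayPt → ℤ) q) h
  simp only [coe_zsmul'] at h1
  exact mul_left_cancel₀ hn h1

theorem fix_SO {g : Co0} (h : ∀ q ∈ o0, g • e8 q = e8 q) {x : leechLattice} (hx : SO x) : g • x = x := by
  have h1 : (8 : ℤ) • x = ∑ q ∈ o0, (x : GolayPt → ℤ) q • e8 q := by
    apply Subtype.ext
    funext p
    rw [coe_zsmul', coe_sum']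
    simp only [coe_zsmul', e8_apply, mul_ite, mul_zero]
    by_cases hp : p ∈ o0
    · rw [Finset.sum_ite_eq, if_pos hp]; ring
    · rw [Finset.sum_ite_eq, if_neg hp, hx p hp]; ring
  apply zsmul_inj (n := 8) (by norm_num)
  rw [← co0_zsmul, h1, co0_sum]
  apply Finset.sum_congr rfl
  intro q hq
  rw [co0_zsmul, h q hq]

theorem F_one_of_fix (g : D) (h : ∀ q ∈ o0, g.1 • e8 q = e8 q) : F g = 1 := by
  apply ext_vec
  intro v
  have h1 := F_mulVec g (sv_mem v)
  rw [pr_sv, fix_SO h (sv_mem v).1, pr_sv] at h1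
  rw [h1, one_mulVec']

/-- chosen roots -/
def ra : Fin 8 → Fin 8 → ℤ :=
  ![![0, 0, 4, -4, 0, 0, 0, 0], ![0, 0, 4, 4, 0, 0, 0, 0], ![0, 0, 0, 4, -4, 0, 0, 0], ![0, 0, 0, 0, 4, -4, 0, 0],
    ![0, 0, 0, 0, 0, 4, -4, 0], ![0, 0, 0, 0, 0, 0, 4, -4], ![2, -2, -2, -2, -2, 2, 2, 2], ![4, -4, 0, 0, 0, 0, 0, 0]]

theorem ra_mem (k : Fin 8) : vecP (ra k) ∈ leechLattice := by
  apply mem_of_test
  revert k
  decide +kernel

def rr (k : Fin 8) : leechLattice := ⟨vecP (ra k), ra_mem k⟩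

theorem rr_mem (k : Fin 8) : rr k ∈ E := by
  refine ⟨fun q hq => vecP_out _ hq, ?_⟩
  show vecP (ra k) (P 0) + vecP (ra k) (P 1) = 0
  rw [vecP_P, vecP_P]
  revert k; decide

theorem rr_norm (k : Fin 8) : sqNorm (rr k : GolayPt → ℤ) = 32 := by
  show sqNorm (vecP (ra k)) = 32
  revert k
  decide +kernel

theorem rr_dot (k l : Fin 8) : dotInt (rr k : GolayPt → ℤ) (rr l) = dotInt (vecP (ra k)) (vecP (ra l)) := rfl

def edge : Fin 7 → Fin 8 × Fin 8 := ![(0, 2), (1, 2), (2, 3), (3, 4), (4, 5), (3, 6), (6, 7)]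

theorem edge_dot : ∀ i : Fin 7, dotInt (vecP (ra (edge i).1)) (vecP (ra (edge i).2)) ≠ 0 := by decide +kernel

/-- expression of the frame -/
def me : Fin 8 → Fin 8 → ℤ :=
  ![![0, 0, 0, 0, 0, 0, 0, 1], ![0, 0, 0, 0, 0, 0, 0, -1], ![1, 1, 0, 0, 0, 0, 0, 0], ![-1, 1, 0, 0, 0, 0, 0, 0],
    ![-1, 1, -2, 0, 0, 0, 0, 0], ![-1, 1, -2, -2, 0, 0, 0, 0], ![-1, 1, -2, -2, -2, 0, 0, 0], ![-1, 1, -2, -2, -2, -2, 0, 0]]

def ne : Fin 8 → ℤ := ![1, 1, 0, 0, 0, 0, 0, 0]

theorem me_check : ∀ i : Fin 8, ∀ q : GolayPt, (if q = P i then (8 : ℤ) else 0) = ∑ k, me i k * vecP (ra k) q + ne i * Spor.vecU q := by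
  decide +kernel

theorem e8_expr (i : Fin 8) : e8 (P i) = ∑ k, me i k • rr k + ne i • Spor.leechU := by
  apply Subtype.ext
  funext q
  rw [e8_apply, me_check]
  show _ = ((∑ k, me i k • rr k : leechLattice) : GolayPt → ℤ) q + ((ne i • Spor.leechU : leechLattice) : GolayPt → ℤ) q
  rw [coe_sum', coe_zsmul']
  simp only [coe_zsmul']
  rfl

theorem dot_zsmul (a b : ℤ) (x y : leechLattice) : dotInt ((a • x : leechLattice) : GolayPt → ℤ) ((b • y : leechLattice) : GolayPt → ℤ) = a * b * dotInt (x : GolayPt → ℤ) y := by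
  unfold dotInt
  rw [Finset.mul_sum]
  apply Finset.sum_congr rfl
  intro i _
  rw [coe_zsmul', coe_zsmul']; ring

theorem ker_sign {g : D} (h : F g = 1) : ∃ s : ℤ, (s = 1 ∨ s = -1) ∧ ∀ k, g.1 • rr k = s • rr k := by
  have h1 : ∀ k, ∃ s : ℤ, (s = 1 ∨ s = -1) ∧ g.1 • rr k = s • rr k := by
    intro k
    have h2 := F_mulVec g (rr_mem k)
    rw [h, one_mulVec'] at h2
    rcases root_inj (rr_mem k) (E_smul g.2 (rr_mem k)) (rr_norm k) (by rw [co0_norm, rr_norm]) h2 with h3 | h3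
    · exact ⟨1, Or.inl rfl, by rw [h3, one_smul]⟩
    · exact ⟨-1, Or.inr rfl, by rw [h3, neg_smul, one_smul]⟩
  choose s hs hgs using h1
  have h2 : ∀ i : Fin 7, s (edge i).1 = s (edge i).2 := by
    intro i
    have e1 := co0_dot g.1 (rr (edge i).1) (rr (edge i).2)
    rw [hgs, hgs, dot_zsmul] at e1
    have e2 := edge_dot i
    rw [← rr_dot] at e2
    have e3 : s (edge i).1 * s (edge i).2 = 1 := mul_right_cancel₀ e2 (by rw [e1, one_mul])
    rcases hs (edge i).1 with e4 | e4 <;> rcases hs (edge i).2 with e5 | e5 <;> rw [e4, e5] at e3 ⊢ <;> norm_num at e3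
  refine ⟨s 0, hs 0, ?_⟩
  have a0 : s 0 = s 2 := h2 0
  have a1 : s 1 = s 2 := h2 1
  have a2 : s 2 = s 3 := h2 2
  have a3 : s 3 = s 4 := h2 3
  have a4 : s 4 = s 5 := h2 4
  have a5 : s 3 = s 6 := h2 5
  have a6 : s 6 = s 7 := h2 6
  intro k
  rw [hgs]
  have : s k = s 0 := by
    fin_cases k
    · rfl
    · show s 1 = s 0; omega
    · show s 2 = s 0; omega
    · show s 3 = s 0; omega
    · show s 4 = s 0; omega
    · show s 5 = s 0; omega
    · show s 6 = s 0; omega
    · show s 7 = s 0; omega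
  rw [this]

theorem cross_of_e8 {g : Co0} {i j : GolayPt} (h : g • e8 i = e8 j) : g ∈ crossStab := by
  obtain ⟨σ, hσ, hσi⟩ := M24_one none i
  obtain ⟨τ, hτ, hτj⟩ := M24_one j none
  have p1 : permElt σ hσ ∈ crossStab := by
    have := mono_mem_crossStab 0 golayCode.zero_mem σ hσ
    have h0 : flipElt 0 golayCode.zero_mem = 1 := co0_ext (fun x => by
      apply Subtype.ext; funext q
      rw [flipElt_apply, lift_zero, one_smul]; ring)
    rwa [h0, one_mul] at this
  have p2 : permElt τ hτ ∈ crossStab := by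
    have := mono_mem_crossStab 0 golayCode.zero_mem τ hτ
    have h0 : flipElt 0 golayCode.zero_mem = 1 := co0_ext (fun x => by
      apply Subtype.ext; funext q
      rw [flipElt_apply, lift_zero, one_smul]; ring)
    rwa [h0, one_mul] at this
  have pe : ∀ (ρ : Equiv.Perm GolayPt) (hρ : ρ ∈ M24) (k : GolayPt), permElt ρ hρ • e8 k = e8 (ρ k) := by
    intro ρ hρ k
    apply Subtype.ext; funext q
    rw [permElt_apply, e8_apply, e8_apply]
    congr 1
    exact propext ⟨fun h => by rw [← h, Equiv.apply_symm_apply], fun h => by rw [h, Equiv.symm_apply_apply]⟩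
  have h1 : permElt τ hτ * g * permElt σ hσ ∈ crossStab := by
    apply stab_le_crossStab
    rw [MulAction.mem_stabilizer_iff, ← e8_none, mul_smul, mul_smul, pe, hσi, h, pe, hτj]
  have h2 := crossStab.mul_mem (crossStab.mul_mem (crossStab.inv_mem p2) h1) (crossStab.inv_mem p1)
  have h3 : (permElt τ hτ)⁻¹ * (permElt τ hτ * g * permElt σ hσ) * (permElt σ hσ)⁻¹ = g := by group
  rwa [h3] at h2

theorem mono_point {c : GolayPt → ZMod 2} {hc : c ∈ golayCode} {σ : Equiv.Perm GolayPt} {hσ : σ ∈ M24} {i j : GolayPt}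
    (h : (flipElt c hc * permElt σ hσ) • e8 i = e8 j ∨ (flipElt c hc * permElt σ hσ) • e8 i = -e8 j) : σ i = j := by
  have h1 := mono_e8 c hc σ hσ i
  have key : e8 (σ i) = e8 j ∨ e8 (σ i) = -e8 j := by
    rcases h with h | h <;> rcases h1 with h1 | h1
    · left; rw [← h1, h]
    · right; rw [← h, h1, neg_neg]
    · right; rw [← h1, h]
    · left; rw [h] at h1; exact (neg_injective h1).symm
  by_contra hne
  rcases key with h2 | h2
  · exact hne (e8_injective h2)
  · have h3 := congrArg (fun z : leechLattice => (z : GolayPt → ℤ) (σ i)) h2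
    simp only [AddSubgroup.coe_neg, Pi.neg_apply, e8_apply, if_neg hne, if_true] at h3
    omega

theorem stab_o0 {σ : Equiv.Perm GolayPt} (h : ∀ i, ∃ j, σ (P i) = P j) : σ • o0 = o0 := by
  apply Finset.eq_of_subset_of_card_le
  · intro q hq
    rw [Finset.mem_smul_finset] at hq
    obtain ⟨p, hp, rfl⟩ := hq
    obtain ⟨i, rfl⟩ := exists_P hp
    obtain ⟨j, hj⟩ := h i
    rw [Equiv.Perm.smul_def, hj]
    exact P_mem j
  · rw [Finset.card_smul_finset]

theorem ker_fix {g : D} (h : F g = 1) : ∀ q ∈ o0, g.1 • e8 q = e8 q := by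
  obtain ⟨s, hs, hgs⟩ := ker_sign h
  have hU := (mem_D.1 g.2).2
  have h1 : ∀ i, g.1 • e8 (P i) = s • e8 (P i) + ((1 - s) * ne i) • Spor.leechU := by
    intro i
    have e0 := e8_expr i
    have e1 : g.1 • (∑ k, me i k • rr k) = s • ∑ k, me i k • rr k := by
      rw [co0_sum, Finset.smul_sum]
      apply Finset.sum_congr rfl
      intro k _
      rw [co0_zsmul, hgs, smul_smul, smul_smul, mul_comm]
    rw [e0, co0_add, e1, co0_zsmul, hU, smul_add, smul_smul, sub_mul, sub_smul, one_mul]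
    abel
  rcases hs with rfl | rfl
  · apply P_forall
    intro i
    rw [h1]; simp
  · exfalso
    have h2 : ∀ i, ne i = 0 → g.1 • e8 (P i) = -e8 (P i) := by
      intro i hi
      rw [h1, hi]; simp
    have h3 : g.1 • e8 (P 0) = e8 (P 1) := by
      rw [h1]
      apply Subtype.ext
      funext q
      have e1 := me_check 0 q
      have e2 := me_check 1 q
      show (((-1 : ℤ) • e8 (P 0) : leechLattice) : GolayPt → ℤ) q + ((((1 - (-1)) * ne 0 : ℤ) • Spor.leechU : leechLattice) : GolayPt → ℤ) q = _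
      rw [coe_zsmul', coe_zsmul', e8_apply, e8_apply, e1, e2]
      show -1 * (_ + _) + _ * Spor.vecU q = _
      simp only [Fin.sum_univ_eight, me, ne]
      simp
      ring
    obtain ⟨c, hc, σ, hσ, hgm⟩ := mem_crossStab_mono (cross_of_e8 h3)
    have s0 : σ (P 0) = P 1 := mono_point (c := c) (hc := hc) (hσ := hσ) (by left; rw [← hgm]; exact h3)
    have s1 : ∀ i, ne i = 0 → σ (P i) = P i := fun i hi => mono_point (c := c) (hc := hc) (hσ := hσ) (by right; rw [← hgm]; exact h2 i hi)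
    have h4 : g.1 • e8 (P 1) = e8 (P 0) := by
      rw [h1]
      apply Subtype.ext
      funext q
      have e1 := me_check 0 q
      have e2 := me_check 1 q
      show (((-1 : ℤ) • e8 (P 1) : leechLattice) : GolayPt → ℤ) q + ((((1 - (-1)) * ne 1 : ℤ) • Spor.leechU : leechLattice) : GolayPt → ℤ) q = _
      rw [coe_zsmul', coe_zsmul', e8_apply, e8_apply, e1, e2]
      show -1 * (_ + _) + _ * Spor.vecU q = _
      simp only [Fin.sum_univ_eight, me, ne]
      simp
      ring
    have s2 : σ (P 1) = P 0 := mono_point (c := c) (hc := hc) (hσ := hσ) (by left; rw [← hgm]; exact h4)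
    have hst : σ • o0 = o0 := by
      apply stab_o0
      intro i
      by_cases h0 : i = 0
      · subst h0; exact ⟨1, s0⟩
      · by_cases h1 : i = 1
        · subst h1; exact ⟨0, s2⟩
        · exact ⟨i, s1 i (by revert i; decide)⟩
    have hmem : M24X.resHom o0 ⟨σ, hσ, hst⟩ ∈ alternatingGroup ↥o0 := by
      rw [← M24X.range_octad o0_mem]; exact ⟨_, rfl⟩
    have hsw : M24X.resHom o0 ⟨σ, hσ, hst⟩ = Equiv.swap ⟨P 0, P_mem 0⟩ ⟨P 1, P_mem 1⟩ := by
      refine Equiv.Perm.ext fun x => Subtype.ext ?_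
      obtain ⟨q, hq⟩ := x
      rw [M24X.resHom_apply]
      obtain ⟨i, rfl⟩ := exists_P hq
      show σ (P i) = _
      by_cases h0 : i = 0
      · subst h0; rw [Equiv.swap_apply_left]; exact s0
      · by_cases h1 : i = 1
        · subst h1; rw [Equiv.swap_apply_right]; exact s2
        · rw [Equiv.swap_apply_of_ne_of_ne]
          · exact s1 i (by revert i; decide)
          · intro h; exact h0 (P_inj (congrArg Subtype.val h))
          · intro h; exact h1 (P_inj (congrArg Subtype.val h))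
    rw [hsw, Equiv.Perm.mem_alternatingGroup, Equiv.Perm.sign_swap] at hmem
    · exact absurd hmem (by decide)
    · intro h; exact absurd (@P_inj 0 1 (congrArg Subtype.val h)) (by decide)

end Cfsg.Agent.C2
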