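import Cfsg.Agent.C2.Base

/-!
# The representation on the six-dimensional symplectic space
-/

set_option autoImplicit false

namespace Cfsg.Agent.C2

open Cfsg Cfsg.Agent.Leech Cfsg.Agent.Golay Cfsg.Agent.ClassSp

theorem cast_even {a : ℤ} (h : ((a : ℤ) : ZMod 2) = 0) : ∃ k, a = 2 * k := by
  have := (ZMod.intCast_zmod_eq_zero_iff_dvd a 2).1 h
  obtain ⟨k, hk⟩ := this
  exact ⟨k, by exact_mod_cast hk⟩

theorem sq_dot (x : GolayPt → ℤ) : sqNorm x = dotInt x x := by
  unfold sqNorm dotInt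
  exact Finset.sum_congr rfl (fun i _ => by ring)

theorem no64 {x : leechLattice} (hx : x ∈ E) (hp : pr x = 0) (hn : sqNorm (x : GolayPt → ℤ) = 64) : False := by
  obtain ⟨u, e, s, h1⟩ := exists_par hx.1
  have hu1 := E_u1 hx h1
  obtain ⟨a1, a2, a3, a4, a5, a6⟩ := pr_par h1
  rw [hp] at a1 a2 a3 a4 a5 a6
  obtain ⟨k1, hk1⟩ := cast_even a1.symm
  obtain ⟨k2, hk2⟩ := cast_even a2.symm
  obtain ⟨k3, hk3⟩ := cast_even a3.symm
  obtain ⟨k4, hk4⟩ := cast_even a4.symm
  obtain ⟨k5, hk5⟩ := cast_even a5.symm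
  obtain ⟨k6, hk6⟩ := cast_even a6.symm
  have he : e = 0 := by
    rcases h1.e01 with h | h
    · exact h
    · omega
  subst he
  rw [sq_dot, dot_par h1 h1, Fin.sum_univ_eight] at hn
  have hs := h1.sm
  rw [Fin.sum_univ_eight] at hs
  have hu1' : u 1 = -u 0 := by omega
  have hs2 : u 2 + u 3 + u 4 + u 5 + u 6 + u 7 = 2 * s := by omega
  have hn2 : 2 * (u 0 * u 0) + u 2 * u 2 + u 3 * u 3 + u 4 * u 4 + u 5 * u 5 + u 6 * u 6 + u 7 * u 7 = 4 := by
    rw [hu1'] at hn
    linarith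
  rcases Int.even_or_odd' (u 2) with ⟨v2, h2 | h2⟩
  · obtain ⟨v3, h3⟩ : ∃ v, u 3 = 2 * v := ⟨u 3 / 2, by omega⟩
    obtain ⟨v4, h4⟩ : ∃ v, u 4 = 2 * v := ⟨u 4 / 2, by omega⟩
    obtain ⟨v5, h5⟩ : ∃ v, u 5 = 2 * v := ⟨u 5 / 2, by omega⟩
    obtain ⟨v6, h6⟩ : ∃ v, u 6 = 2 * v := ⟨u 6 / 2, by omega⟩
    obtain ⟨v7, h7⟩ : ∃ v, u 7 = 2 * v := ⟨u 7 / 2, by omega⟩
    rw [h2, h3, h4, h5, h6, h7] at hn2
    have h8 : u 0 * u 0 + 2 * (v2 * v2 + v3 * v3 + v4 * v4 + v5 * v5 + v6 * v6 + v7 * v7) = 2 := by linarith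
    have g0 := mul_self_nonneg (u 0)
    have g2 := mul_self_nonneg v2
    have g3 := mul_self_nonneg v3
    have g4 := mul_self_nonneg v4
    have g5 := mul_self_nonneg v5
    have g6 := mul_self_nonneg v6
    have g7 := mul_self_nonneg v7
    obtain ⟨w0, hw0⟩ : ∃ w, u 0 = 2 * w := by
      rcases Int.even_or_odd' (u 0) with ⟨w, hw | hw⟩
      · exact ⟨w, hw⟩
      · exfalso
        rw [hw] at h8
        have : (2 * w + 1) * (2 * w + 1) = 2 * (2 * w * w + 2 * w) + 1 := by ring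
        omega
    have h9 : v2 * v2 + v3 * v3 + v4 * v4 + v5 * v5 + v6 * v6 + v7 * v7 = 1 := by
      have g1 := mul_self_nonneg w0
      rw [hw0] at h8
      have : (2 * w0) * (2 * w0) = 4 * (w0 * w0) := by ring
      omega
    have hpar : ∀ v : ℤ, ∃ k, v * v = v + 2 * k := by
      intro v
      obtain ⟨k, hk⟩ := Int.even_mul_pred_self v
      have : v * (v - 1) = v * v - v := by ring
      exact ⟨k, by omega⟩
    obtain ⟨l2, hl2⟩ := hpar v2
    obtain ⟨l3, hl3⟩ := hpar v3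
    obtain ⟨l4, hl4⟩ := hpar v4
    obtain ⟨l5, hl5⟩ := hpar v5
    obtain ⟨l6, hl6⟩ := hpar v6
    obtain ⟨l7, hl7⟩ := hpar v7
    omega
  · have hodd : ∀ i : Fin 8, (∃ v, u i = 2 * v + 1) → 1 ≤ u i * u i := by
      rintro i ⟨v, hv⟩
      have : 0 < u i * u i := by
        apply mul_self_pos.2
        omega
      omega
    have g2 := hodd 2 ⟨v2, h2⟩
    have g3 := hodd 3 ⟨(u 3) / 2, by omega⟩
    have g4 := hodd 4 ⟨(u 4) / 2, by omega⟩
    have g5 := hodd 5 ⟨(u 5) / 2, by omega⟩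
    have g6 := hodd 6 ⟨(u 6) / 2, by omega⟩
    have g7 := hodd 7 ⟨(u 7) / 2, by omega⟩
    have g0 := mul_self_nonneg (u 0)
    omega

/-- roots with the same image are equal or opposite -/
theorem root_inj {x y : leechLattice} (hx : x ∈ E) (hy : y ∈ E) (hnx : sqNorm (x : GolayPt → ℤ) = 32)
    (hny : sqNorm (y : GolayPt → ℤ) = 32) (h : pr x = pr y) : y = x ∨ y = -x := by
  by_contra hcon
  rw [not_or] at hcon
  have h1 : Bf x y = 0 := by rw [Bf_eq hx hy, h, sf_self]
  obtain ⟨a, ha⟩ := dvd16 hx.1 hy.1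
  unfold Bf at h1
  rw [ha, Int.mul_ediv_cancel_left _ (by norm_num)] at h1
  obtain ⟨k, hk⟩ := cast_even h1
  have e1 : sqNorm ((x - y : leechLattice) : GolayPt → ℤ) = 64 - 2 * dotInt (x : GolayPt → ℤ) y := by
    have := sqNorm_sub (x : GolayPt → ℤ) y
    rw [hnx, hny] at this
    exact this
  have e2 : sqNorm ((x + y : leechLattice) : GolayPt → ℤ) = 64 + 2 * dotInt (x : GolayPt → ℤ) y := by
    have := sqNorm_add (x : GolayPt → ℤ) y
    rw [hnx, hny] at this
    exact this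
  have p1 : sqNorm ((x - y : leechLattice) : GolayPt → ℤ) ≠ 0 := by
    intro h0
    rw [sqNorm_eq_zero_iff] at h0
    exact hcon.1 (sub_eq_zero.1 (Subtype.ext h0)).symm
  have p2 : sqNorm ((x + y : leechLattice) : GolayPt → ℤ) ≠ 0 := by
    intro h0
    rw [sqNorm_eq_zero_iff] at h0
    exact hcon.2 (eq_neg_of_add_eq_zero_right (Subtype.ext h0))
  have n1 := sqNorm_nonneg ((x - y : leechLattice) : GolayPt → ℤ)
  have n2 := sqNorm_nonneg ((x + y : leechLattice) : GolayPt → ℤ)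
  have h0 : dotInt (x : GolayPt → ℤ) y = 0 := by omega
  apply no64 (E.sub_mem hx hy) _ (by rw [e1, h0]; norm_num)
  rw [sub_eq_add_neg, pr_add hx.1 hy.1.neg, pr_neg hy.1, h]
  funext k
  show pr y k + pr y k = 0
  have : ∀ a : ZMod 2, a + a = 0 := by decide
  exact this _

/-- the word of the complement of the octad -/
def wO : GolayPt → ZMod 2 := fun q => if q ∈ o0 then 0 else 1

theorem wO_mem : wO ∈ golayCode := by
  have h1 := (supports_mem_iff golayCode o0).1 o0_mem.1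
  have h2 : wO = (fun i => if i ∈ o0 then (1 : ZMod 2) else 0) + 1 := by
    funext q
    by_cases hq : q ∈ o0
    · simp only [wO, if_pos hq, Pi.add_apply, Pi.one_apply]; decide
    · simp only [wO, if_neg hq, Pi.add_apply, Pi.one_apply, zero_add]
  rw [h2]
  exact golayCode.add_mem h1 one_mem_code

/-- the involution -/
def tE : Co0 := flipElt wO wO_mem

theorem tE_in {x : leechLattice} {q : GolayPt} (hq : q ∈ o0) : ((tE • x : leechLattice) : GolayPt → ℤ) q = (x : GolayPt → ℤ) q := by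
  rw [tE, flipElt_apply, (lift_eq_zero_iff wO q).2 (by unfold wO; rw [if_pos hq])]; ring

theorem tE_out {x : leechLattice} {q : GolayPt} (hq : q ∉ o0) : ((tE • x : leechLattice) : GolayPt → ℤ) q = -(x : GolayPt → ℤ) q := by
  rw [tE, flipElt_apply, (lift_eq_one_iff wO q).2 (by unfold wO; rw [if_neg hq]; exact one_ne_zero)]; ring

theorem tE_fix {x : leechLattice} : tE • x = x ↔ SO x := by
  constructor
  · intro h q hq
    have h1 := congrArg (fun y : leechLattice => (y : GolayPt → ℤ) q) h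
    simp only [tE_out hq] at h1
    omega
  · intro h
    apply Subtype.ext
    funext q
    by_cases hq : q ∈ o0
    · exact tE_in hq
    · rw [tE_out hq, h q hq, neg_zero]

/-- the group -/
def D : Subgroup Co0 := Subgroup.centralizer {tE} ⊓ MulAction.stabilizer Co0 Spor.leechU

theorem mem_D {g : Co0} : g ∈ D ↔ tE * g = g * tE ∧ g • Spor.leechU = Spor.leechU := by
  rw [D, Subgroup.mem_inf, Subgroup.mem_centralizer_singleton_iff, MulAction.mem_stabilizer_iff]
  exact ⟨fun h => ⟨h.1.symm, h.2⟩, fun h => ⟨h.1.symm, h.2⟩⟩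

theorem SO_smul {g : Co0} (hg : tE * g = g * tE) {x : leechLattice} (hx : SO x) : SO (g • x) := by
  rw [← tE_fix, ← mul_smul, hg, mul_smul, tE_fix.2 hx]

theorem dot_U (x : leechLattice) : dotInt (x : GolayPt → ℤ) (Spor.leechU : GolayPt → ℤ) = 4 * ((x : GolayPt → ℤ) none + (x : GolayPt → ℤ) pz) := by
  have h1 : (Spor.leechU : GolayPt → ℤ) = Pi.single none 4 + Pi.single pz 4 := by
    funext q
    show (if q = none ∨ q = some 0 then (4 : ℤ) else 0) = _
    rw [Pi.add_apply]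
    by_cases h1 : q = none
    · subst h1; rw [if_pos (Or.inl rfl), Pi.single_eq_same, Pi.single_eq_of_ne (by decide)]; rfl
    · by_cases h2 : q = some 0
      · subst h2; rw [if_pos (Or.inr rfl), Pi.single_eq_of_ne (by decide), Pi.single_eq_same]; rfl
      · rw [if_neg (by tauto), Pi.single_eq_of_ne h1, Pi.single_eq_of_ne h2]; rfl
  rw [h1]
  have h2 : dotInt (x : GolayPt → ℤ) (Pi.single none 4 + Pi.single pz 4) = dotInt (x : GolayPt → ℤ) (Pi.single none 4) + dotInt (x : GolayPt → ℤ) (Pi.single pz 4) := by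
    unfold dotInt
    rw [← Finset.sum_add_distrib]
    exact Finset.sum_congr rfl (fun i _ => by rw [Pi.add_apply]; ring)
  rw [h2, dot_single, dot_single]; ring

theorem mem_E' {x : leechLattice} : x ∈ E ↔ SO x ∧ dotInt (x : GolayPt → ℤ) (Spor.leechU : GolayPt → ℤ) = 0 := by
  rw [mem_E, dot_U]
  constructor
  · rintro ⟨h1, h2⟩; exact ⟨h1, by rw [h2]; rfl⟩
  · rintro ⟨h1, h2⟩; exact ⟨h1, by omega⟩

theorem E_smul {g : Co0} (hg : g ∈ D) {x : leechLattice} (hx : x ∈ E) : g • x ∈ E := by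
  rw [mem_D] at hg
  rw [mem_E'] at hx ⊢
  refine ⟨SO_smul hg.1 hx.1, ?_⟩
  have := co0_dot g x Spor.leechU
  rw [hg.2, hx.2] at this
  exact this

theorem Bf_smul (g : Co0) (x y : leechLattice) : Bf (g • x) (g • y) = Bf x y := by
  unfold Bf; rw [co0_dot]

/-- vectors with given image -/
noncomputable def sv (v : Fin 3 ⊕ Fin 3 → ZMod 2) : leechLattice := ∑ k, (if v k = 0 then 0 else bb k)

theorem pr_sum {ι : Type*} (s : Finset ι) (f : ι → leechLattice) (hf : ∀ i ∈ s, SO (f i)) : SO (∑ i ∈ s, f i) ∧ pr (∑ i ∈ s, f i) = ∑ i ∈ s, pr (f i) := by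
  classical
  induction s using Finset.induction_on with
  | empty => exact ⟨SO.zero, pr_zero⟩
  | insert a s ha ih =>
    have h1 := ih (fun i hi => hf i (Finset.mem_insert_of_mem hi))
    have h2 := hf a (Finset.mem_insert_self a s)
    rw [Finset.sum_insert ha, Finset.sum_insert ha]
    exact ⟨h2.add h1.1, by rw [pr_add h2 h1.1, h1.2]⟩

theorem sv_mem (v : Fin 3 ⊕ Fin 3 → ZMod 2) : sv v ∈ E := by
  apply E.sum_mem
  intro k _
  split_ifs
  · exact E.zero_mem
  · exact bb_mem k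

theorem pr_bb (k : Fin 3 ⊕ Fin 3) : pr (bb k) = Pi.single k 1 := by
  funext l
  obtain ⟨a1, a2, a3, a4, a5, a6⟩ := pr_par (par_bb k)
  rcases l with l | l
  · fin_cases l
    · refine a1.trans ?_
      revert k; decide
    · refine a2.trans ?_
      revert k; decide
    · refine a3.trans ?_
      revert k; decide
  · fin_cases l
    · refine a4.trans ?_
      revert k; decide
    · refine a5.trans ?_
      revert k; decide
    · refine a6.trans ?_
      revert k; decide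

theorem zmod2 (a : ZMod 2) : a = 0 ∨ a = 1 := by revert a; decide

theorem pr_sv (v : Fin 3 ⊕ Fin 3 → ZMod 2) : pr (sv v) = v := by
  unfold sv
  rw [(pr_sum _ _ (fun k _ => by split_ifs; exact SO.zero; exact SO_bb k)).2]
  have : ∀ k, pr (if v k = 0 then 0 else bb k) = Pi.single k (v k) := by
    intro k
    rcases zmod2 (v k) with h | h
    · rw [if_pos h, h, pr_zero, Pi.single_zero]
    · rw [if_neg (by rw [h]; exact one_ne_zero), h, pr_bb]
  rw [Finset.sum_congr rfl (fun k _ => this k), Finset.univ_sum_single]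

/-- the radical is preserved -/
theorem pr_smul_zero {g : Co0} (hg : g ∈ D) {x : leechLattice} (hx : x ∈ E) (h : pr x = 0) : pr (g • x) = 0 := by
  have key : ∀ y ∈ E, Bf (g • x) y = 0 := by
    intro y hy
    have h1 := Bf_smul g x (g⁻¹ • y)
    rw [smul_inv_smul, Bf_eq hx (E_smul (D.inv_mem hg) hy), h, sf_zero_left] at h1
    exact h1
  funext k
  rcases k with i | i
  · exact key _ (bb_mem _)
  · exact key _ (bb_mem _)

theorem pr_smul_eq {g : Co0} (hg : g ∈ D) {x y : leechLattice} (hx : x ∈ E) (hy : y ∈ E) (h : pr x = pr y) : pr (g • x) = pr (g • y) := by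
  have h1 : pr (g • (x - y)) = 0 := by
    apply pr_smul_zero hg (E.sub_mem hx hy)
    rw [sub_eq_add_neg, pr_add hx.1 hy.1.neg, pr_neg hy.1, h]
    funext k
    have : ∀ a : ZMod 2, a + a = 0 := by decide
    exact this _
  rw [co0_sub, sub_eq_add_neg, pr_add (E_smul hg hx).1 (E_smul hg hy).1.neg, pr_neg (E_smul hg hy).1] at h1
  funext k
  have h2 := congrFun h1 k
  have : ∀ a b : ZMod 2, a + b = 0 → a = b := by decide
  exact this _ _ h2

/-- the linear map -/
noncomputable def fl (g : D) : (Fin 3 ⊕ Fin 3 → ZMod 2) →ₗ[ZMod 2] (Fin 3 ⊕ Fin 3 → ZMod 2) :=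
  AddMonoidHom.toZModLinearMap 2
    { toFun := fun v => pr (g.1 • sv v)
      map_zero' := by
        rw [pr_smul_zero g.2 (sv_mem 0) (pr_sv 0)]
      map_add' := by
        intro v w
        have h1 : pr (g.1 • sv (v + w)) = pr (g.1 • (sv v + sv w)) := by
          apply pr_smul_eq g.2 (sv_mem _) (E.add_mem (sv_mem v) (sv_mem w))
          rw [pr_sv, pr_add (sv_mem v).1 (sv_mem w).1, pr_sv, pr_sv]
        rw [h1, co0_add, pr_add (E_smul g.2 (sv_mem v)).1 (E_smul g.2 (sv_mem w)).1] }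

theorem fl_apply (g : D) (v : Fin 3 ⊕ Fin 3 → ZMod 2) : fl g v = pr (g.1 • sv v) := rfl

theorem fl_pr (g : D) {x : leechLattice} (hx : x ∈ E) : fl g (pr x) = pr (g.1 • x) := by
  rw [fl_apply]
  exact pr_smul_eq g.2 (sv_mem _) hx (pr_sv _)

theorem fl_sf (g : D) (u v : Fin 3 ⊕ Fin 3 → ZMod 2) : sf (fl g u) (fl g v) = sf u v := by
  rw [fl_apply, fl_apply, ← Bf_eq (E_smul g.2 (sv_mem u)) (E_smul g.2 (sv_mem v)), Bf_smul, Bf_eq (sv_mem u) (sv_mem v), pr_sv, pr_sv]

/-- the representation -/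
noncomputable def F : D →* Matrix.symplecticGroup (Fin 3) (ZMod 2) :=
  MonoidHom.mk' (fun g => ofLin (fl g) (fl_sf g))
  (by
    intro g h
    apply ext_vec
    intro v
    rw [mul_mulVec, ofLin_mulVec, ofLin_mulVec, ofLin_mulVec, fl_apply h v, fl_pr g (E_smul h.2 (sv_mem v)), ← mul_smul]
    rfl)

theorem F_mulVec (g : D) {x : leechLattice} (hx : x ∈ E) :
    (F g : Matrix (Fin 3 ⊕ Fin 3) (Fin 3 ⊕ Fin 3) (ZMod 2)).mulVec (pr x) = pr (g.1 • x) := by
  exact (ofLin_mulVec (fl g) (fl_sf g) (pr x)).trans (fl_pr g hx)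

end Cfsg.Agent.C2
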