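import Cfsg.Agent.C2.Extra

/-!
# Surjectivity of the representation
-/

set_option autoImplicit false

namespace Cfsg.Agent.C2

open Cfsg Cfsg.Agent.Leech Cfsg.Agent.Golay Cfsg.Agent.ClassSp
open scoped Pointwise

def wm : Fin 8 → ℕ := ![0, 8499969, 8436754, 8401364, 8464984, 8490656, 8439632, 8592704]

theorem wm_code : ∀ k, inCode (wm k) = true := by decide +kernel

theorem wm_P : ∀ k j : Fin 8, (wm k).testBit (idx (P j)) = (xor (decide (j = k)) (decide (j = 0))) := by decide +kernel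

/-- codewords meeting the octad in two points -/
def wk (k : Fin 8) : GolayPt → ZMod 2 := fun q => if q ∈ ofMask (wm k) then 1 else 0

theorem wk_mem (k : Fin 8) : wk k ∈ golayCode :=
  (supports_mem_iff golayCode _).1 (ofMask_mem_supports (wm_code k))

theorem wk_P (k j : Fin 8) : wk k (P j) = (if j = k then 1 else 0) + (if j = 0 then 1 else 0) := by
  unfold wk
  simp only [mem_ofMask, wm_P]
  revert k j
  decide

theorem exists_word (A : Finset (Fin 8)) (hA : Even A.card) : ∃ c ∈ golayCode, ∀ j, lift c (P j) = if j ∈ A then 1 else 0 := by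
  refine ⟨∑ k ∈ A, wk k, golayCode.sum_mem (fun k _ => wk_mem k), ?_⟩
  intro j
  have h1 : (∑ k ∈ A, wk k) (P j) = if j ∈ A then 1 else 0 := by
    rw [Finset.sum_apply, Finset.sum_congr rfl (fun k _ => wk_P k j), Finset.sum_add_distrib, Finset.sum_ite_eq, Finset.sum_const]
    obtain ⟨m, hm⟩ := hA
    rw [hm, nsmul_eq_mul]
    have : ((m + m : ℕ) : ZMod 2) = 0 := by push_cast; exact CharTwo.add_self_eq_zero _
    rw [this, zero_mul, add_zero]
  split_ifs with h
  · rw [if_pos h] at h1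
    rw [lift_eq_one_iff, h1]; exact one_ne_zero
  · rw [if_neg h] at h1
    rw [lift_eq_zero_iff, h1]

noncomputable def eP : Fin 8 ≃ ↥o0 := Equiv.ofBijective (fun i => ⟨P i, P_mem i⟩)
  ⟨fun _ _ h => P_inj (congrArg Subtype.val h), fun ⟨q, hq⟩ => by
    obtain ⟨i, hi⟩ := exists_P hq
    exact ⟨i, Subtype.ext hi⟩⟩

theorem exists_perm (π : Equiv.Perm (Fin 8)) (hπ : Equiv.Perm.sign π = 1) : ∃ σ ∈ M24, σ • o0 = o0 ∧ ∀ i, σ (P i) = P (π i) := by
  have h1 : eP.permCongr π ∈ alternatingGroup ↥o0 := by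
    rw [Equiv.Perm.mem_alternatingGroup, Equiv.Perm.sign_permCongr, hπ]
  rw [← M24X.range_octad o0_mem] at h1
  obtain ⟨σ, hσ⟩ := h1
  refine ⟨σ.1, σ.2.1, σ.2.2, ?_⟩
  intro i
  have h2 := congrArg (fun ρ : Equiv.Perm ↥o0 => ((ρ (eP i) : ↥o0) : GolayPt)) hσ
  simp only [M24X.resHom_apply, Equiv.permCongr_apply, Equiv.symm_apply_apply] at h2
  exact h2

theorem exists_mono (π : Equiv.Perm (Fin 8)) (hπ : Equiv.Perm.sign π = 1) (A : Finset (Fin 8)) (hA : Even A.card) :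
    ∃ g : Co0, tE * g = g * tE ∧ ∀ (x : leechLattice) (i : Fin 8), ((g • x : leechLattice) : GolayPt → ℤ) (P (π i)) =
      (if π i ∈ A then -1 else 1) * (x : GolayPt → ℤ) (P i) := by
  obtain ⟨σ, hσ, hst, hσP⟩ := exists_perm π hπ
  obtain ⟨c, hc, hcA⟩ := exists_word A hA
  refine ⟨flipElt c hc * permElt σ hσ, ?_, ?_⟩
  · apply co0_ext
    intro x
    apply Subtype.ext
    funext j
    rw [mul_smul tE, mul_smul (flipElt c hc * permElt σ hσ) tE]
    have hiff : σ.symm j ∈ o0 ↔ j ∈ o0 := by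
      rw [← M24X.mem_iff_of_stab hst, Equiv.apply_symm_apply]
    by_cases hj : j ∈ o0
    · rw [tE_in hj, mono_smul, mono_smul, tE_in (hiff.2 hj)]
    · rw [tE_out hj, mono_smul, mono_smul, tE_out (fun h => hj (hiff.1 h))]; ring
  · intro x i
    rw [mono_smul, ← hσP, Equiv.symm_apply_apply, hσP, hcA]
    split_ifs <;> ring

theorem ext_SO {x y : leechLattice} (hx : SO x) (hy : SO y) (h : ∀ i, (x : GolayPt → ℤ) (P i) = (y : GolayPt → ℤ) (P i)) : x = y := by
  apply Subtype.ext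
  funext q
  by_cases hq : q ∈ o0
  · obtain ⟨i, rfl⟩ := exists_P hq
    exact h i
  · rw [hx q hq, hy q hq]

def uU : Fin 8 → ℤ := ![4, 4, 0, 0, 0, 0, 0, 0]

theorem U_P : ∀ i, (Spor.leechU : GolayPt → ℤ) (P i) = uU i := by
  show ∀ i, Spor.vecU (P i) = uU i
  decide

theorem SO_U : SO Spor.leechU := by
  intro q hq
  show Spor.vecU q = 0
  have h : ∀ i, q ≠ P i := by
    rintro i rfl
    exact hq (P_mem i)
  unfold Spor.vecU
  rw [if_neg]
  rintro (h1 | h1)
  · exact h 0 h1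
  · exact h 1 h1

theorem pr_zsmul {x : leechLattice} (hx : SO x) (k : ℤ) : SO (k • x) ∧ pr (k • x) = (k : ZMod 2) • pr x := by
  have hs : SO (k • x) := by
    intro q hq
    rw [coe_zsmul', hx q hq, mul_zero]
  refine ⟨hs, ?_⟩
  have key : ∀ y, SO y → Bf (k • x) y = (k : ZMod 2) * Bf x y := by
    intro y hy
    obtain ⟨a, ha⟩ := dvd16 hx hy
    have h1 : dotInt ((k • x : leechLattice) : GolayPt → ℤ) y = 16 * (k * a) := by
      have := dot_zsmul k 1 x y
      rw [one_smul, ha] at this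
      rw [this]; ring
    unfold Bf
    rw [h1, ha, Int.mul_ediv_cancel_left _ (by norm_num), Int.mul_ediv_cancel_left _ (by norm_num), Int.cast_mul]
  funext l
  rcases l with i | i
  · exact key _ (SO_bb _)
  · exact key _ (SO_bb _)

theorem F_refl (g : D) {r : leechLattice} (hr : r ∈ E)
    (hg : ∀ x ∈ E, ∀ k : ℤ, dotInt (x : GolayPt → ℤ) r = 16 * k → g.1 • x = -x + k • r) : F g = tv (pr r) 1 := by
  apply ext_vec
  intro v
  have hx := sv_mem v
  obtain ⟨k, hk⟩ := dvd16 hx.1 hr.1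
  have h1 := F_mulVec g hx
  rw [pr_sv] at h1
  have h2 : sf v (pr r) = (k : ZMod 2) := by
    rw [← pr_sv v, ← Bf_eq hx hr]
    unfold Bf
    rw [hk, Int.mul_ediv_cancel_left _ (by norm_num)]
  rw [h1, tv_mulVec, hg _ hx k hk, pr_add hx.1.neg (pr_zsmul hr.1 k).1, pr_neg hx.1, (pr_zsmul hr.1 k).2, pr_sv, h2, one_mul]

/-- the transvections in the image -/
def TT : Set (Fin 3 ⊕ Fin 3 → ZMod 2) := {w | tv w 1 ∈ F.range}

theorem TT_smul (g : D) {w : Fin 3 ⊕ Fin 3 → ZMod 2} (hw : w ∈ TT) : (F g : Matrix (Fin 3 ⊕ Fin 3) (Fin 3 ⊕ Fin 3) (ZMod 2)).mulVec w ∈ TT := by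
  show tv _ 1 ∈ F.range
  rw [← tv_conj]
  exact F.range.mul_mem (F.range.mul_mem ⟨g, rfl⟩ hw) (F.range.inv_mem ⟨g, rfl⟩)

theorem TT_add {v w : Fin 3 ⊕ Fin 3 → ZMod 2} (hv : v ∈ TT) (hw : w ∈ TT) (h : sf v w = 1) : v + w ∈ TT := by
  have h1 : tv ((tv w 1 : Matrix _ _ _).mulVec v) 1 ∈ F.range := by
    rw [← tv_conj]
    exact F.range.mul_mem (F.range.mul_mem hw hv) (F.range.inv_mem hw)
  rw [tv_mulVec, h, one_mul, one_smul] at h1
  exact h1

theorem TT_root (π : Equiv.Perm (Fin 8)) (hπ : Equiv.Perm.sign π = 1) (A : Finset (Fin 8)) (hA : Even A.card) (m : Fin 8)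
    (hU : ∀ i, uU (π i) = (if π i ∈ A then -1 else 1) * uU i)
    (hx : ∀ a : Fin 8 → ℤ, a 0 + a 1 = 0 → ∀ k : ℤ, ∑ i, a i * ra m i = 16 * k → ∀ i, (if π i ∈ A then -1 else 1) * a i = - a (π i) + k * ra m (π i)) :
    pr (rr m) ∈ TT := by
  obtain ⟨g, hg, hgx⟩ := exists_mono π hπ A hA
  have hgU : g • Spor.leechU = Spor.leechU := by
    apply ext_SO (SO_smul hg SO_U) SO_U
    intro i
    obtain ⟨j, rfl⟩ := π.surjective i
    rw [hgx, U_P, U_P, hU]
  refine ⟨⟨g, mem_D.2 ⟨hg, hgU⟩⟩, F_refl _ (rr_mem m) ?_⟩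
  intro x hxE k hk
  apply ext_SO (SO_smul hg hxE.1) (hxE.1.neg.add (pr_zsmul (rr_mem m).1 k).1)
  intro i
  obtain ⟨j, rfl⟩ := π.surjective i
  show ((g • x : leechLattice) : GolayPt → ℤ) (P (π j)) = -(x : GolayPt → ℤ) (P (π j)) + ((k • rr m : leechLattice) : GolayPt → ℤ) (P (π j))
  rw [hgx, coe_zsmul']
  have h1 : (rr m : GolayPt → ℤ) (P (π j)) = ra m (π j) := vecP_P (ra m) (π j)
  rw [h1]
  apply hx (fun i => (x : GolayPt → ℤ) (P i)) hxE.2 k
  rw [← hk]
  unfold dotInt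
  rw [sum_supp (fun q hq => by rw [hxE.1 q hq, zero_mul])]
  apply Finset.sum_congr rfl
  intro i _
  have h2 : (rr m : GolayPt → ℤ) (P i) = ra m i := vecP_P (ra m) i
  rw [h2]

open Equiv in
theorem TT0 : pr (rr 0) ∈ TT := by
  apply TT_root (swap 0 1 * swap 2 3) (by decide) {2, 3, 4, 5, 6, 7} (by decide) 0 (by decide)
  intro a ha k hk i
  rw [Fin.sum_univ_eight] at hk
  simp [ra] at hk
  fin_cases i <;> simp [ra, swap_apply_def] <;> linarith

open Equiv in
theorem TT1 : pr (rr 1) ∈ TT := by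
  apply TT_root (swap 0 1 * swap 2 3) (by decide) {4, 5, 6, 7} (by decide) 1 (by decide)
  intro a ha k hk i
  rw [Fin.sum_univ_eight] at hk
  simp [ra] at hk
  fin_cases i <;> simp [ra, swap_apply_def] <;> linarith

open Equiv in
theorem TT2 : pr (rr 2) ∈ TT := by
  apply TT_root (swap 0 1 * swap 3 4) (by decide) {2, 3, 4, 5, 6, 7} (by decide) 2 (by decide)
  intro a ha k hk i
  rw [Fin.sum_univ_eight] at hk
  simp [ra] at hk
  fin_cases i <;> simp [ra, swap_apply_def] <;> linarith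

open Equiv in
theorem TT3 : pr (rr 3) ∈ TT := by
  apply TT_root (swap 0 1 * swap 4 5) (by decide) {2, 3, 4, 5, 6, 7} (by decide) 3 (by decide)
  intro a ha k hk i
  rw [Fin.sum_univ_eight] at hk
  simp [ra] at hk
  fin_cases i <;> simp [ra, swap_apply_def] <;> linarith

open Equiv in
theorem TT4 : pr (rr 4) ∈ TT := by
  apply TT_root (swap 0 1 * swap 5 6) (by decide) {2, 3, 4, 5, 6, 7} (by decide) 4 (by decide)
  intro a ha k hk i
  rw [Fin.sum_univ_eight] at hk
  simp [ra] at hk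
  fin_cases i <;> simp [ra, swap_apply_def] <;> linarith

open Equiv in
theorem TT5 : pr (rr 5) ∈ TT := by
  apply TT_root (swap 0 1 * swap 6 7) (by decide) {2, 3, 4, 5, 6, 7} (by decide) 5 (by decide)
  intro a ha k hk i
  rw [Fin.sum_univ_eight] at hk
  simp [ra] at hk
  fin_cases i <;> simp [ra, swap_apply_def] <;> linarith

theorem TT7 : pr (rr 7) ∈ TT := by
  apply TT_root 1 (by decide) {2, 3, 4, 5, 6, 7} (by decide) 7 (by decide)
  intro a ha k hk i
  rw [Fin.sum_univ_eight] at hk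
  simp [ra] at hk
  fin_cases i <;> simp [ra] <;> linarith

theorem par_rr (k : Fin 8) (hk : k ≠ 6) : Par (rr k : GolayPt → ℤ) (fun i => ra k i / 4) 0 ((∑ i, ra k i / 4) / 2) where
  supp := fun q hq => vecP_out (ra k) hq
  co := fun i => by
    have : (rr k : GolayPt → ℤ) (P i) = ra k i := vecP_P (ra k) i
    rw [this]
    revert k i; decide
  sm := by revert k; decide
  e01 := Or.inl rfl

theorem pr_rr (k : Fin 8) (hk : k ≠ 6) : ∃ v : Fin 3 ⊕ Fin 3 → ZMod 2, pr (rr k) = v ∧ v = fun l => match l with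
    | Sum.inl 0 => ((ra k 3 / 4 - ra k 4 / 4 : ℤ) : ZMod 2)
    | Sum.inl 1 => ((ra k 6 / 4 - ra k 7 / 4 : ℤ) : ZMod 2)
    | Sum.inl 2 => ((-(ra k 1 / 4 + ra k 2 / 4 + ra k 3 / 4 + ra k 4 / 4) + (∑ i, ra k i / 4) / 2 : ℤ) : ZMod 2)
    | Sum.inr 0 => ((ra k 2 / 4 - ra k 3 / 4 : ℤ) : ZMod 2)
    | Sum.inr 1 => ((ra k 5 / 4 - ra k 6 / 4 : ℤ) : ZMod 2)
    | Sum.inr 2 => ((ra k 0 / 4 - ra k 1 / 4 : ℤ) : ZMod 2) := by
  refine ⟨_, rfl, ?_⟩
  obtain ⟨a1, a2, a3, a4, a5, a6⟩ := pr_par (par_rr k hk)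
  funext l
  rcases l with l | l
  · fin_cases l
    · exact a1
    · exact a2
    · exact a3
  · fin_cases l
    · exact a4
    · exact a5
    · exact a6

abbrev V6 : Type := Fin 3 ⊕ Fin 3 → ZMod 2

def toV (m : ℕ) : V6
  | Sum.inl i => if m.testBit i then 1 else 0
  | Sum.inr i => if m.testBit (3 + i) then 1 else 0

def chk (L : List (ℕ × ℕ × ℕ)) (S : List ℕ) : Bool :=
  match L with
  | [] => true
  | (m, a, b) :: L => S.contains a && S.contains b && decide (toV m = toV a + toV b) && decide (sf (toV a) (toV b) = 1) && chk L (m :: S)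

theorem chain (L : List (ℕ × ℕ × ℕ)) : ∀ (S : List ℕ), (∀ m ∈ S, toV m ∈ TT) → chk L S = true → ∀ p ∈ L, toV p.1 ∈ TT := by
  induction L with
  | nil => intro S _ _ p hp; exact absurd hp List.not_mem_nil
  | cons x L ih =>
    intro S hS hL p hp
    obtain ⟨m, a, b⟩ := x
    simp only [chk, Bool.and_eq_true, decide_eq_true_eq, List.contains_iff_mem] at hL
    obtain ⟨⟨⟨⟨h1, h2⟩, h3⟩, h4⟩, h5⟩ := hL
    have h6 : toV m ∈ TT := by
      rw [h3]; exact TT_add (hS a h1) (hS b h2) h4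
    rcases List.mem_cons.1 hp with h7 | h7
    · rw [h7]; exact h6
    · apply ih (m :: S) _ h5 p h7
      intro n hn
      rcases List.mem_cons.1 hn with h8 | h8
      · rw [h8]; exact h6
      · exact hS n h8

def Lc : List (ℕ × ℕ × ℕ) := [(9, 1, 8), (13, 5, 8), (12, 5, 9), (29, 8, 21), (23, 21, 2), (28, 21, 9), (24, 21, 13), (25, 21, 12),
  (18, 2, 16), (31, 2, 29), (30, 2, 28), (26, 2, 24), (27, 2, 25), (7, 16, 23), (15, 16, 31), (14, 16, 30), (10, 16, 26), (11, 16, 27),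
  (17, 8, 25), (19, 8, 27), (3, 8, 11), (6, 21, 19), (22, 21, 3), (20, 2, 22)]

theorem chk_ok : chk Lc [1, 5, 8, 21, 2, 16, 4] = true := by decide +kernel

theorem base_TT : ∀ m ∈ [1, 5, 8, 21, 2, 16, 4], toV m ∈ TT := by
  have key : ∀ (k : Fin 8) (hk : k ≠ 6) (m : ℕ), (toV m = fun l => match l with
      | Sum.inl 0 => ((ra k 3 / 4 - ra k 4 / 4 : ℤ) : ZMod 2)
      | Sum.inl 1 => ((ra k 6 / 4 - ra k 7 / 4 : ℤ) : ZMod 2)
      | Sum.inl 2 => ((-(ra k 1 / 4 + ra k 2 / 4 + ra k 3 / 4 + ra k 4 / 4) + (∑ i, ra k i / 4) / 2 : ℤ) : ZMod 2)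
      | Sum.inr 0 => ((ra k 2 / 4 - ra k 3 / 4 : ℤ) : ZMod 2)
      | Sum.inr 1 => ((ra k 5 / 4 - ra k 6 / 4 : ℤ) : ZMod 2)
      | Sum.inr 2 => ((ra k 0 / 4 - ra k 1 / 4 : ℤ) : ZMod 2)) → pr (rr k) = toV m := by
    intro k hk m hm
    obtain ⟨v, h1, h2⟩ := pr_rr k hk
    rw [h1, h2, hm]
  intro m hm
  simp only [List.mem_cons, List.not_mem_nil, or_false] at hm
  rcases hm with rfl | rfl | rfl | rfl | rfl | rfl | rfl
  · rw [← key 0 (by decide) 1 (by decide +kernel)]; exact TT0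
  · rw [← key 1 (by decide) 5 (by decide +kernel)]; exact TT1
  · rw [← key 2 (by decide) 8 (by decide +kernel)]; exact TT2
  · rw [← key 3 (by decide) 21 (by decide +kernel)]; exact TT3
  · rw [← key 4 (by decide) 2 (by decide +kernel)]; exact TT4
  · rw [← key 5 (by decide) 16 (by decide +kernel)]; exact TT5
  · rw [← key 7 (by decide) 4 (by decide +kernel)]; exact TT7

theorem H_cover : ∀ w : V6, w (Sum.inr 2) = 0 → w ≠ 0 → ∃ m ∈ [1, 5, 8, 21, 2, 16, 4, 9, 13, 12, 29, 23, 28, 24, 25, 18, 31, 30, 26, 27, 7, 15, 14, 10, 11, 17, 19, 3, 6, 22, 20], toV m = w := by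
  decide +kernel

theorem TT_H (w : V6) (h0 : w (Sum.inr 2) = 0) (h1 : w ≠ 0) : w ∈ TT := by
  obtain ⟨m, hm, rfl⟩ := H_cover w h0 h1
  have h2 := chain Lc _ base_TT chk_ok
  have h3 : m ∈ [1, 5, 8, 21, 2, 16, 4] ∨ ∃ p ∈ Lc, p.1 = m := by
    revert m
    decide +kernel
  rcases h3 with h3 | ⟨p, hp, rfl⟩
  · exact base_TT m h3
  · exact h2 p hp

theorem sf_swap2 (v w : V6) : sf v w = sf w v := by
  rw [sf_swap]
  have : ∀ a : ZMod 2, -a = a := by decide
  exact this _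

/-- one more vector gives everything -/
theorem TT_all {w0 : V6} (hw0 : w0 ∈ TT) (h0 : w0 (Sum.inr 2) = 1) (w : V6) (hw : w ≠ 0) : w ∈ TT := by
  rcases zmod2 (w (Sum.inr 2)) with h1 | h1
  · exact TT_H w h1 hw
  have two : ∀ a : ZMod 2, a + a = 0 := by decide
  have hadd : ∀ v w : V6, v + (v + w) = w := by
    intro v w; funext k; simp only [Pi.add_apply]
    rw [← add_assoc, two, zero_add]
  obtain ⟨h, hh⟩ : ∃ h : V6, h = w0 + w := ⟨_, rfl⟩
  have hH : h (Sum.inr 2) = 0 := by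
    rw [hh, Pi.add_apply, h0, h1]; decide
  obtain ⟨a3, ha3H, ha3n, ha3s⟩ : ∃ a3 : V6, a3 (Sum.inr 2) = 0 ∧ a3 ≠ 0 ∧ ∀ v : V6, sf a3 v = v (Sum.inr 2) :=
    ⟨Pi.single (Sum.inl 2) 1, by decide, by decide, fun v => sf_single_inl_left 2 v⟩
  rcases zmod2 (sf w0 h) with h2 | h2
  · have h3 : w0 + a3 ∈ TT := TT_add hw0 (TT_H a3 ha3H ha3n) (by rw [sf_swap2, ha3s, h0])
    have h4 : h + a3 ≠ 0 := by
      intro h5
      have h6 : h = a3 := by
        have := hadd a3 h
        rw [add_comm a3 h, h5, add_zero] at this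
        exact this.symm
      rw [h6, sf_swap2, ha3s, h0] at h2
      exact one_ne_zero h2
    have h5 : w = (w0 + a3) + (h + a3) := by
      rw [hh]
      funext k
      simp only [Pi.add_apply]
      have e1 := two (w0 k)
      have e2 := two (a3 k)
      linear_combination -e1 - e2
    rw [h5]
    apply TT_add h3 (TT_H _ (by rw [Pi.add_apply, hH, ha3H, add_zero]) h4)
    rw [sf_add_left, sf_add_right, sf_add_right, h2, ha3s, ha3s, hH, ha3H, sf_swap2 w0 a3, ha3s, h0]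
    decide
  · have h5 : w = w0 + h := by rw [hh, hadd]
    rw [h5]
    apply TT_add hw0 (TT_H h hH _) h2
    rintro h6
    rw [h6, sf_zero_right] at h2
    exact zero_ne_one h2

theorem hlow8 : ∀ i : Fin 8, ¬ 4 ≤ i.val → i = 0 ∨ i = 1 ∨ i = 2 ∨ i = 3 := by decide

theorem hcard8 : ∀ i : Fin 8, 4 ≤ i.val → 5 ≤ ({0, 1, 2, 3, i} : Finset (Fin 8)).card := by decide

/-- the sextet element -/
theorem exists_g0 : ∃ g : D, pr (g.1 • rr 2) (Sum.inr 2) = 1 := by
  obtain ⟨z, r, e, hZ, r0, r1, r2, r3, e0, e4⟩ := exists_zeta (fun i : Fin 5 => P (Fin.castLE (by norm_num) i)) (fun i j h => by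
    have := P_inj h
    simpa using this)
  replace r0 : r (P 0) = P 1 := r0
  replace r1 : r (P 1) = P 2 := r1
  replace r2 : r (P 2) = P 3 := r2
  replace r3 : r (P 3) = P 0 := r3
  have rinj : Function.Injective r := by
    intro a b h
    rw [← hZ.r4 a, ← hZ.r4 b, h]
  have htet : ∀ i : Fin 8, 4 ≤ i.val → P i ∉ tet r (P 0) := by
    intro i hi h
    unfold tet at h
    rw [r0, r1, r2] at h
    simp only [Finset.mem_insert, Finset.mem_singleton] at h
    rcases h with h | h | h | h <;> have := P_inj h <;> rw [this] at hi <;> revert hi <;> decide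
  have hro : ∀ i : Fin 8, 4 ≤ i.val → ∃ j : Fin 8, 4 ≤ j.val ∧ r (P i) = P j := by
    intro i hi
    have h1 := hZ.oct (P 0) (P i) (htet i hi)
    have h2 : tet r (P 0) ∪ tet r (P i) = o0 := by
      apply octad_eq_of_subset h1 o0_mem (s := {P 0, P 1, P 2, P 3, P i})
      · intro q hq
        simp only [Finset.mem_insert, Finset.mem_singleton] at hq
        rw [Finset.mem_union]
        unfold tet
        rw [r0, r1, r2]
        simp only [Finset.mem_insert, Finset.mem_singleton]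
        tauto
      · intro q hq
        simp only [Finset.mem_insert, Finset.mem_singleton] at hq
        rcases hq with rfl | rfl | rfl | rfl | rfl <;> exact P_mem _
      · have : ({P 0, P 1, P 2, P 3, P i} : Finset GolayPt) = ({0, 1, 2, 3, i} : Finset (Fin 8)).image P := by
          simp only [Finset.image_insert, Finset.image_singleton]
        rw [this, Finset.card_image_of_injective _ P_inj]
        exact hcard8 i hi
    have h3 : r (P i) ∈ o0 := by
      rw [← h2, Finset.mem_union]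
      right
      unfold tet
      simp
    obtain ⟨j, hj⟩ := exists_P h3
    refine ⟨j, ?_, hj.symm⟩
    by_contra hj4
    have hcase : j = 0 ∨ j = 1 ∨ j = 2 ∨ j = 3 := hlow8 j hj4
    rcases hcase with rfl | rfl | rfl | rfl
    · have := P_inj (rinj (r3.trans hj)); rw [← this] at hi; revert hi; decide
    · have := P_inj (rinj (r0.trans hj)); rw [← this] at hi; revert hi; decide
    · have := P_inj (rinj (r1.trans hj)); rw [← this] at hi; revert hi; decide
    · have := P_inj (rinj (r2.trans hj)); rw [← this] at hi; revert hi; decide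
  have hr8 : ∀ i : Fin 8, r (P i) ∈ o0 := by
    intro i
    by_cases hi : 4 ≤ i.val
    · obtain ⟨j, -, hj⟩ := hro i hi
      rw [hj]; exact P_mem j
    · have hcase : i = 0 ∨ i = 1 ∨ i = 2 ∨ i = 3 := hlow8 i hi
      rcases hcase with rfl | rfl | rfl | rfl
      · rw [r0]; exact P_mem _
      · rw [r1]; exact P_mem _
      · rw [r2]; exact P_mem _
      · rw [r3]; exact P_mem _
  have hrin : ∀ q ∈ o0, r q ∈ o0 := P_forall hr8
  have hrout : ∀ q, q ∉ o0 → r q ∉ o0 := by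
    intro q hq h
    apply hq
    have := hrin _ (hrin _ (hrin _ h))
    rwa [hZ.r4] at this
  have hcomm : tE * z = z * tE := by
    apply co0_ext
    intro x
    apply Subtype.ext
    funext j
    rw [mul_smul tE, mul_smul z tE]
    have h1 := hZ.act x j
    have h2 := hZ.act (tE • x) j
    by_cases hj : j ∈ o0
    · have a1 := hrin _ hj
      have a2 := hrin _ a1
      have a3 := hrin _ a2
      rw [tE_in hj, tE_in a1, tE_in a2, tE_in a3] at h2
      rw [tE_in hj]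
      omega
    · have a1 := hrout _ hj
      have a2 := hrout _ a1
      have a3 := hrout _ a2
      rw [tE_out hj, tE_out a1, tE_out a2, tE_out a3] at h2
      rw [tE_out hj]
      have h3 : e j * (-(x : GolayPt → ℤ) j - -(x : GolayPt → ℤ) (r j) - -(x : GolayPt → ℤ) (r (r j)) - -(x : GolayPt → ℤ) (r (r (r j)))) =
        -(e j * ((x : GolayPt → ℤ) j - (x : GolayPt → ℤ) (r j) - (x : GolayPt → ℤ) (r (r j)) - (x : GolayPt → ℤ) (r (r (r j))))) := by ring
      rw [h3] at h2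
      omega
  -- e on the first tetrad
  have e1' : e (P 1) = 1 := by rw [← r0, hZ.er, ← e0]; rfl
  have e2' : e (P 2) = 1 := by rw [← r1, hZ.er, e1']
  have e3' : e (P 3) = 1 := by rw [← r2, hZ.er, e2']
  have e0' : e (P 0) = 1 := e0
  have zU : ∀ i, ((z • Spor.leechU : leechLattice) : GolayPt → ℤ) (P i) = (![0, 0, -4, -4, 0, 0, 0, 0] : Fin 8 → ℤ) i := by
    intro i
    have h1 := hZ.act Spor.leechU (P i)
    by_cases hi : 4 ≤ i.val
    · obtain ⟨j, hj4, hj⟩ := hro i hi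
      obtain ⟨k, hk4, hk⟩ := hro j hj4
      obtain ⟨l, hl4, hl⟩ := hro k hk4
      rw [hj, hk, hl, U_P, U_P, U_P, U_P] at h1
      have hz : ∀ i : Fin 8, 4 ≤ i.val → uU i = 0 ∧ (![0, 0, -4, -4, 0, 0, 0, 0] : Fin 8 → ℤ) i = 0 := by decide
      rw [(hz i hi).1, (hz j hj4).1, (hz k hk4).1, (hz l hl4).1] at h1
      rw [(hz i hi).2]
      simpa using h1
    · have hcase : i = 0 ∨ i = 1 ∨ i = 2 ∨ i = 3 := hlow8 i hi
      rcases hcase with rfl | rfl | rfl | rfl
      · rw [r0, r1, r2, U_P, U_P, U_P, U_P, e0'] at h1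
        simp [uU] at h1 ⊢; exact h1
      · rw [r1, r2, r3, U_P, U_P, U_P, U_P, e1'] at h1
        simp [uU] at h1 ⊢; exact h1
      · rw [r2, r3, r0, U_P, U_P, U_P, U_P, e2'] at h1
        simp [uU] at h1 ⊢; linarith
      · rw [r3, r0, r1, U_P, U_P, U_P, U_P, e3'] at h1
        simp [uU] at h1 ⊢; linarith
  have hrP : ∀ i, (rr 2 : GolayPt → ℤ) (P i) = ra 2 i := fun i => vecP_P (ra 2) i
  have z2 : ((z • rr 2 : leechLattice) : GolayPt → ℤ) (P 2) = -2 := by
    have h1 := hZ.act (rr 2) (P 2)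
    rw [r2, r3, r0, hrP, hrP, hrP, hrP, e2'] at h1
    simp [ra] at h1; linarith
  have z3 : ((z • rr 2 : leechLattice) : GolayPt → ℤ) (P 3) = 2 := by
    have h1 := hZ.act (rr 2) (P 3)
    rw [r3, r0, r1, hrP, hrP, hrP, hrP, e3'] at h1
    simp [ra] at h1; linarith
  obtain ⟨n, hn, hnx⟩ := exists_mono (Equiv.swap 0 2 * Equiv.swap 1 3) (by decide) {0, 1} (by decide)
  have hg1 : tE * (n * z) = (n * z) * tE := by
    rw [← mul_assoc, hn, mul_assoc, hcomm, ← mul_assoc]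
  have hU : (n * z) • Spor.leechU = Spor.leechU := by
    apply ext_SO (SO_smul hg1 SO_U) SO_U
    intro i
    obtain ⟨j, rfl⟩ := (Equiv.swap 0 2 * Equiv.swap 1 3 : Equiv.Perm (Fin 8)).surjective i
    rw [mul_smul, hnx, zU, U_P]
    revert j; decide
  refine ⟨⟨n * z, mem_D.2 ⟨hg1, hU⟩⟩, ?_⟩
  have hmem : (n * z) • rr 2 ∈ E := E_smul (mem_D.2 ⟨hg1, hU⟩) (rr_mem 2)
  obtain ⟨u, e', s, hpar⟩ := exists_par hmem.1
  have hp := pr_par hpar
  have hc0 := hpar.co 0
  have hc1 := hpar.co 1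
  have v0 : (((n * z) • rr 2 : leechLattice) : GolayPt → ℤ) (P 0) = 2 := by
    rw [mul_smul]
    have := hnx (z • rr 2) 2
    rw [z2] at this
    exact this
  have v1 : (((n * z) • rr 2 : leechLattice) : GolayPt → ℤ) (P 1) = -2 := by
    rw [mul_smul]
    have := hnx (z • rr 2) 3
    rw [z3] at this
    exact this
  rw [v0] at hc0
  rw [v1] at hc1
  show pr ((n * z) • rr 2) (Sum.inr 2) = 1
  rw [hp.2.2.2.2.2]
  have : u 0 - u 1 = 1 := by omega
  rw [this]; rfl

theorem F_surj : Function.Surjective F := by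
  rw [← MonoidHom.range_eq_top, eq_top_iff, ← tvGroup_eq_top (Fin 3), tvGroup, Subgroup.closure_le]
  obtain ⟨g, hg⟩ := exists_g0
  have h1 : pr (rr 2) ∈ TT := TT2
  have h2 := TT_smul g h1
  rw [F_mulVec g (rr_mem 2)] at h2
  rintro _ ⟨w, c, rfl⟩
  rcases zmod2 c with rfl | rfl
  · rw [tv_zero]; exact F.range.one_mem
  · by_cases hw : w = 0
    · subst hw
      have : tv (0 : V6) (1 : ZMod 2) = 1 := by
        apply ext_vec; intro v; rw [tv_mulVec, one_mulVec', smul_zero, add_zero]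
      rw [this]; exact F.range.one_mem
    · exact TT_all h2 hg w hw

end Cfsg.Agent.C2
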